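import Mathlib

/-! Number theory for Amitsur's theorem (S4294): Gauss's identity `z^p - 1 = (z-1)(A² + pB²)`
for primes `p ≡ 3 mod 4`; divisors of `x² + 5` are sums of two squares over `ℚ(√5)`; hence `-1`
is a sum of three squares in any field of characteristic `0` containing `√5` and a root of unity
`z ≠ 1` of order prime to `10`. -/

set_option autoImplicit false

namespace Cfsg.Agent.Elu.Am

open Finset

theorem exists_coeffs {K L : Type*} [CommRing K] [CommRing L] [Algebra K L] {R : Type*}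
    [CommRing R] [Fintype R] [DecidableEq R] (ψ : AddChar R L) (z : K) (Q : Finset R) :
    ∃ c : R → K, ∀ s : R, ∏ a ∈ Q, (algebraMap K L z - ψ (s * a)) =
      ∑ n, algebraMap K L (c n) * ψ (s * n) := by
  induction Q using Finset.induction_on with
  | empty =>
    refine ⟨fun n => if n = 0 then 1 else 0, fun s => ?_⟩
    simp [apply_ite]
  | insert a Q ha ih =>
    obtain ⟨c, hc⟩ := ih
    refine ⟨fun n => z * c n - c (n - a), fun s => ?_⟩
    rw [prod_insert ha, hc, sub_mul, mul_sum, mul_sum]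
    simp only [map_sub, map_mul, sub_mul, sum_sub_distrib]
    congr 1
    · exact sum_congr rfl fun n _ => by ring
    · refine Fintype.sum_equiv (Equiv.addRight a) _ _ fun n => ?_
      simp only [Equiv.coe_addRight, add_sub_cancel_right, mul_add, AddChar.map_add_eq_mul]
      ring

theorem gauss_norm_aux {K L : Type*} [Field K] [CharZero K] [Field L] [Algebra K L] (p : ℕ)
    [hp : Fact p.Prime] (h4 : p % 4 = 3) (z : K) {ω : L} (hω : IsPrimitiveRoot ω p) :
    ∃ A B : K, z ^ p - 1 = (z - 1) * (A ^ 2 + p * B ^ 2) := by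
  classical
  have : CharZero L := charZero_of_injective_algebraMap (algebraMap K L).injective
  obtain ⟨ψ, hψ⟩ : ∃ ψ : AddChar (ZMod p) L,
    ψ = AddChar.zmodChar p ((IsPrimitiveRoot.iff_def ω p).mp hω).left := ⟨_, rfl⟩
  have hprim : ψ.IsPrimitive := hψ ▸ AddChar.zmodChar_primitive_of_primitive_root p hω
  have hch : ringChar (ZMod p) ≠ 2 := by rw [ZMod.ringChar_zmod_n]; omega
  obtain ⟨χ, hχ⟩ : ∃ χ : MulChar (ZMod p) L,
    χ = (quadraticChar (ZMod p)).ringHomComp (Int.castRingHom L) := ⟨_, rfl⟩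
  have hχa : ∀ a, χ a = ((quadraticChar (ZMod p) a : ℤ) : L) := fun a => by simp [hχ]
  have hm1 : quadraticChar (ZMod p) (-1) = -1 := by
    rw [quadraticChar_neg_one_iff_not_isSquare, ZMod.exists_sq_eq_neg_one_iff]
    simp [h4]
  have hχ1 : χ ≠ 1 := by
    rw [hχ]
    exact (MulChar.ringHomComp_ne_one_iff (RingHom.injective_int _)).2 (quadraticChar_ne_one hch)
  have hχ2 : χ.IsQuadratic := hχ ▸ (quadraticChar_isQuadratic _).comp _
  obtain ⟨g, hg⟩ : ∃ g, g = gaussSum χ ψ := ⟨_, rfl⟩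
  have hg2 : g ^ 2 = -(p : L) := by
    rw [hg, gaussSum_sq hχ1 hχ2 hprim, hχa, hm1, ZMod.card]; simp
  obtain ⟨Q, hQ⟩ : ∃ Q : Finset (ZMod p),
    Q = univ.filter fun a => quadraticChar (ZMod p) a = 1 := ⟨_, rfl⟩
  have hQm : ∀ a, a ∈ Q ↔ quadraticChar (ZMod p) a = 1 := fun a => by simp [hQ]
  -- the average over `Q`
  have havg : ∀ m : ZMod p, 2 * ∑ t ∈ Q, ψ (t * m) =
      ((if m = 0 then (p : ℤ) - 1 else -1 : ℤ) : L) + χ m * g := by
    intro m
    have h1 : ∑ t, χ t * ψ (t * m) = χ m * g := by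
      rcases eq_or_ne m 0 with rfl | hm
      · simp only [mul_zero, AddChar.map_zero_eq_one, mul_one, MulChar.map_zero, zero_mul]
        exact MulChar.sum_eq_zero_of_ne_one hχ1
      · have := gaussSum_mulShift_eq χ ψ (Units.mk0 m hm)
        rw [hχ2.inv, ← hg] at this
        simp only [Units.val_mk0] at this
        rw [← this, gaussSum]
        exact sum_congr rfl fun t _ => by rw [AddChar.mulShift_apply, mul_comm m t]
    have h2 := AddChar.sum_mulShift m hprim
    rw [ZMod.card] at h2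
    have h3 : ∀ t : ZMod p, (if t ∈ Q then 2 * ψ (t * m) else 0) =
        ψ (t * m) - (if t = 0 then 1 else 0) + χ t * ψ (t * m) := by
      intro t
      rcases eq_or_ne t 0 with rfl | ht
      · simp [hQm, hχa]
      · rcases quadraticChar_dichotomy ht with h | h
        · simp only [hQm, h, hχa, ht, if_true, if_false]; push_cast; ring
        · simp only [hQm, h, hχa, ht, if_false]; norm_num
    rw [mul_sum, ← sum_ite_mem_eq Q, sum_congr rfl fun t _ => h3 t, sum_add_distrib,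
      sum_sub_distrib, h1, h2]
    simp only [sum_ite_eq', mem_univ, if_true]
    split_ifs <;> simp
  obtain ⟨c, hc⟩ := exists_coeffs ψ z Q
  have hinv : ∀ s, ∀ t ∈ Q, ∏ a ∈ Q, (algebraMap K L z - ψ (t * s * a)) =
      ∏ a ∈ Q, (algebraMap K L z - ψ (s * a)) := by
    intro s t ht
    have ht0 : t ≠ 0 := by rintro rfl; simp [hQm] at ht
    refine prod_nbij' (fun a => t * a) (fun a => t⁻¹ * a) ?_ ?_ ?_ ?_ ?_
    · intro a ha
      rw [hQm] at *
      rw [map_mul, ha, ht, one_mul]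
    · intro a ha
      rw [hQm] at *
      have : quadraticChar (ZMod p) t * quadraticChar (ZMod p) (t⁻¹ * a) = 1 := by
        rw [← map_mul, mul_inv_cancel_left₀ ht0, ha]
      rwa [ht, one_mul] at this
    · intro a _; exact inv_mul_cancel_left₀ ht0 a
    · intro a _; exact mul_inv_cancel_left₀ ht0 a
    · intro a _; congr 2; ring
  have hQ0 : ((2 * Q.card : ℕ) : K) ≠ 0 := by
    have : 0 < Q.card := card_pos.2 ⟨1, by simp [hQm]⟩
    exact Nat.cast_ne_zero.2 (by omega)
  obtain ⟨A, hA⟩ : ∃ A : K, A = (∑ n, c n * ((if n = 0 then (p : ℤ) - 1 else -1 : ℤ) : K)) /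
    ((2 * Q.card : ℕ) : K) := ⟨_, rfl⟩
  obtain ⟨B, hB⟩ : ∃ B : K, B = (∑ n, c n * ((quadraticChar (ZMod p) n : ℤ) : K)) /
    ((2 * Q.card : ℕ) : K) := ⟨_, rfl⟩
  have hF : ∀ s : ZMod p, s ≠ 0 → ∏ a ∈ Q, (algebraMap K L z - ψ (s * a)) =
      algebraMap K L A + χ s * algebraMap K L B * g := by
    intro s hs
    have hL : algebraMap K L ((2 * Q.card : ℕ) : K) ≠ 0 := (map_ne_zero _).2 hQ0
    apply mul_left_cancel₀ hL
    have e1 : algebraMap K L ((2 * Q.card : ℕ) : K) * ∏ a ∈ Q, (algebraMap K L z - ψ (s * a)) =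
        2 * ∑ t ∈ Q, ∏ a ∈ Q, (algebraMap K L z - ψ (t * s * a)) := by
      rw [sum_congr rfl (hinv s), sum_const, nsmul_eq_mul, map_natCast]; push_cast; ring
    rw [e1, sum_congr rfl fun t _ => hc (t * s), sum_comm, mul_sum]
    have e2 : ∀ n, 2 * ∑ t ∈ Q, algebraMap K L (c n) * ψ (t * s * n) =
        algebraMap K L (c n * ((if n = 0 then (p : ℤ) - 1 else -1 : ℤ) : K)) +
          χ s * algebraMap K L (c n * ((quadraticChar (ZMod p) n : ℤ) : K)) * g := by
      intro n
      rw [← mul_sum, mul_left_comm]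
      simp only [mul_assoc _ s n]
      rw [havg, map_mul, map_mul, map_mul, map_intCast, map_intCast, ← hχa]
      simp only [mul_eq_zero, hs, false_or]
      ring
    rw [sum_congr rfl fun n _ => e2 n, sum_add_distrib, ← sum_mul, ← mul_sum, ← map_sum,
      ← map_sum, ← mul_div_cancel₀ (∑ n, c n * ((quadraticChar (ZMod p) n : ℤ) : K)) hQ0, ← hB,
      ← mul_div_cancel₀ (∑ n, c n * ((if n = 0 then (p : ℤ) - 1 else -1 : ℤ) : K)) hQ0, ← hA,
      map_mul, map_mul]
    ring
  refine ⟨A, B, (algebraMap K L).injective ?_⟩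
  have hall : (algebraMap K L z) ^ p - 1 = ∏ a : ZMod p, (algebraMap K L z - ψ a) := by
    have := congrArg (Polynomial.eval (algebraMap K L z))
      (X_pow_sub_C_eq_prod hω hp.out.pos (one_pow p))
    simp only [Polynomial.eval_sub, Polynomial.eval_pow, Polynomial.eval_X, Polynomial.eval_C,
      Polynomial.eval_prod, mul_one] at this
    rw [this]
    refine prod_nbij' (fun i => (i : ZMod p)) (fun a => a.val) (by simp) ?_ ?_ (by simp) ?_
    · intro a _; exact mem_range.2 (ZMod.val_lt a)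
    · intro i hi; exact ZMod.val_cast_of_lt (mem_range.1 hi)
    · intro i _; rw [hψ, AddChar.zmodChar_apply']
  have hsplit : ∏ a : ZMod p, (algebraMap K L z - ψ a) = (algebraMap K L z - 1) *
      ((∏ a ∈ Q, (algebraMap K L z - ψ (1 * a))) * ∏ a ∈ Q, (algebraMap K L z - ψ (-1 * a))) := by
    rw [← mul_prod_erase univ _ (mem_univ 0), AddChar.map_zero_eq_one,
      ← prod_filter_mul_prod_filter_not (univ.erase 0) fun a => a ∈ Q]
    congr 2
    · refine prod_congr ?_ fun a _ => by rw [one_mul]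
      ext a
      simp only [mem_filter, mem_erase, mem_univ, and_true, and_iff_right_iff_imp]
      rintro ha rfl; simp [hQm] at ha
    · refine prod_nbij' (fun a => -a) (fun a => -a) ?_ ?_ (by simp) (by simp) (by simp)
      · intro a ha
        simp only [mem_filter, mem_erase, mem_univ, and_true, hQm] at ha ⊢
        rw [← neg_one_mul, map_mul, hm1, (quadraticChar_dichotomy ha.1).resolve_left ha.2]
        norm_num
      · intro a ha
        simp only [mem_filter, mem_erase, mem_univ, and_true, hQm] at ha ⊢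
        refine ⟨?_, ?_⟩
        · rw [Ne, neg_eq_zero]; rintro rfl; simp at ha
        · rw [← neg_one_mul, map_mul, hm1, ha]; norm_num
  rw [map_sub, map_pow, map_one, hall, hsplit, hF 1 one_ne_zero, hF (-1) (neg_ne_zero.2 one_ne_zero),
    hχa (-1), hm1, map_one]
  simp only [map_mul, map_sub, map_add, map_pow, map_one, map_natCast]
  push_cast
  linear_combination (-(algebraMap K L z - 1) * (algebraMap K L B) ^ 2) * hg2

theorem gauss_norm {K : Type*} [Field K] [CharZero K] (p : ℕ) [hp : Fact p.Prime]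
    (h4 : p % 4 = 3) (z : K) : ∃ A B : K, z ^ p - 1 = (z - 1) * (A ^ 2 + p * B ^ 2) := by
  have hp0 : NeZero (p : AlgebraicClosure K) := ⟨Nat.cast_ne_zero.2 hp.out.ne_zero⟩
  obtain ⟨ω, hω⟩ := HasEnoughRootsOfUnity.exists_primitiveRoot (AlgebraicClosure K) p
  exact gauss_norm_aux p h4 z hω

theorem sq_add_sq_of_dvd {K : Type*} [Field K] [CharZero K] {u : K} (hu : u ^ 2 = 5) (n : ℕ) :
    0 < n → ∀ x : ℤ, (n : ℤ) ∣ x ^ 2 + 5 → ∃ c d : K, (n : K) = c ^ 2 + d ^ 2 := by
  induction n using Nat.strong_induction_on with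
  | _ n ih =>
    intro hn x hx
    rcases Nat.lt_or_ge n 3 with h3 | h3
    · interval_cases n
      · exact ⟨1, 0, by norm_num⟩
      · exact ⟨1, 1, by norm_num⟩
    obtain ⟨y, hy, hyx⟩ : ∃ y : ℤ, 2 * |y| ≤ n ∧ (n : ℤ) ∣ x - y := by
      have h0 : (0 : ℤ) < n := by exact_mod_cast hn
      have h1 := Int.emod_nonneg x h0.ne'
      have h2 := Int.emod_lt_of_pos x h0
      have h5 := Int.dvd_self_sub_emod (x := x) (m := (n : ℤ))
      rcases le_or_gt (2 * (x % n)) n with h | h
      · exact ⟨x % n, by rwa [abs_of_nonneg h1], h5⟩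
      · refine ⟨x % n - n, by rw [abs_of_neg (by omega)]; omega, ?_⟩
        have : x - (x % n - n) = (x - x % n) + n := by ring
        rw [this]; exact dvd_add h5 dvd_rfl
    have hy5 : (n : ℤ) ∣ y ^ 2 + 5 := by
      have : y ^ 2 + 5 = (x ^ 2 + 5) - (x - y) * (x + y) := by ring
      rw [this]; exact dvd_sub hx (hyx.mul_right _)
    obtain ⟨m, hm⟩ := hy5
    have hn3 : (3 : ℤ) ≤ n := by exact_mod_cast h3
    have hm0 : 0 < m := by
      by_contra h
      nlinarith [sq_nonneg y]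
    have hmn : m < n := by
      by_contra h
      have : 4 * y ^ 2 ≤ n ^ 2 := by nlinarith [sq_abs y, abs_nonneg y]
      nlinarith
    lift m to ℕ using hm0.le
    obtain ⟨c, d, hcd⟩ := ih m (by exact_mod_cast hmn) (by exact_mod_cast hm0) y
      ⟨n, by rw [hm]; ring⟩
    have hmK : (m : K) ≠ 0 := Nat.cast_ne_zero.2 (by omega)
    have hK : (y : K) ^ 2 + 5 = n * m := by exact_mod_cast congrArg (Int.cast : ℤ → K) hm
    refine ⟨(y * c + u * d) / m, (y * d - u * c) / m, ?_⟩
    field_simp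
    linear_combination (-(m : K)) * hK + ((y : K) ^ 2 + 5) * hcd - (c ^ 2 + d ^ 2) * hu

theorem exists_dvd_sq_add_five (p : ℕ) [hp : Fact p.Prime] (h : p % 20 = 3) :
    ∃ x : ℤ, (p : ℤ) ∣ x ^ 2 + 5 := by
  have h35 : ¬ IsSquare (3 : ZMod 5) := by decide
  have h5 : Fact (Nat.Prime 5) := ⟨by norm_num⟩
  have h1 : ¬ IsSquare ((5 : ℕ) : ZMod p) := by
    rw [← ZMod.exists_sq_eq_prime_iff_of_mod_four_eq_one (p := 5) (q := p) rfl (by omega)]
    have : (p : ZMod 5) = 3 := by
      rw [← Nat.mod_add_div p 20, h]; push_cast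
      have : (20 : ZMod 5) = 0 := rfl
      rw [this]; ring
    rw [this]; exact h35
  have h2 : ¬ IsSquare (-1 : ZMod p) := by
    rw [ZMod.exists_sq_eq_neg_one_iff]; simp; omega
  have h3 : quadraticChar (ZMod p) (-1 * ((5 : ℕ) : ZMod p)) = 1 := by
    rw [map_mul, quadraticChar_neg_one_iff_not_isSquare.2 h1,
      quadraticChar_neg_one_iff_not_isSquare.2 h2]; norm_num
  have h0 : (-1 * ((5 : ℕ) : ZMod p)) ≠ 0 := by
    intro h0; rw [h0] at h3; simp at h3
  obtain ⟨x, hx⟩ := (quadraticChar_one_iff_isSquare h0).1 h3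
  refine ⟨x.val, (ZMod.intCast_zmod_eq_zero_iff_dvd _ p).1 ?_⟩
  push_cast at hx ⊢
  rw [ZMod.natCast_zmod_val]
  linear_combination -hx

theorem exists_three_sq {K : Type*} [Field K] [CharZero K] {u z : K} (hu : u ^ 2 = 5) {r : ℕ}
    (hr : r.Coprime 20) (hz : z ^ r = 1) (hz1 : z ≠ 1) :
    ∃ a b c : K, 1 + a ^ 2 + b ^ 2 + c ^ 2 = 0 := by
  have hr0 : r ≠ 0 := by rintro rfl; simp at hr
  obtain ⟨k, hk1, hk2⟩ := Nat.chineseRemainder hr (r - 1) 3
  have hco : k.Coprime (r * 20) := by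
    refine Nat.Coprime.mul_right ?_ ?_
    · rw [Nat.Coprime, hk1.gcd_eq]
      exact (Nat.coprime_self_sub_left (by omega)).2 (Nat.coprime_one_left r)
    · rw [Nat.Coprime, hk2.gcd_eq]; norm_num
  obtain ⟨p, -, hp, hpk⟩ := Nat.forall_exists_prime_gt_and_modEq 0 (q := r * 20) (by omega) hco
  have := Fact.mk hp
  have h20 : p % 20 = 3 := (hpk.of_mul_left r).trans hk2
  have hpr : p + 1 ≡ 0 [MOD r] := by
    have := ((hpk.of_mul_right 20).trans hk1).add_right 1
    rw [Nat.sub_add_cancel (by omega)] at this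
    exact this.trans (Nat.modEq_zero_iff_dvd.2 dvd_rfl)
  have hzp : z ^ p * z = 1 := by
    obtain ⟨m, hm⟩ := Nat.modEq_zero_iff_dvd.1 hpr
    rw [← pow_succ, hm, pow_mul, hz, one_pow]
  obtain ⟨A, B, hAB⟩ := gauss_norm p (by omega) z
  obtain ⟨x, hx⟩ := exists_dvd_sq_add_five p h20
  obtain ⟨c, d, hcd⟩ := sq_add_sq_of_dvd hu p hp.pos x hx
  have hodd : r % 2 = 1 := by
    by_contra h
    have h2 : 2 ∣ Nat.gcd r 20 := Nat.dvd_gcd (by omega) (by norm_num)
    rw [hr] at h2; omega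
  obtain ⟨y, hy⟩ : ∃ y : K, y ^ 2 = z := by
    refine ⟨z ^ ((r + 1) / 2), ?_⟩
    rw [← pow_mul, show (r + 1) / 2 * 2 = r + 1 by omega, pow_succ, hz, one_mul]
  refine ⟨y * A, y * B * c, y * B * d, mul_left_cancel₀ (sub_ne_zero.2 hz1) ?_⟩
  rw [hcd] at hAB
  linear_combination hzp - z * hAB + (z - 1) * (A ^ 2 + (c ^ 2 + d ^ 2) * B ^ 2) * hy

end Cfsg.Agent.Elu.Am
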