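import Cfsg.Agent.Elu.Am1

/-! The binary icosahedral group inside a division ring `D` (S4294): `D` has characteristic `0`,
no root of unity `≠ 1` of order prime to `10` centralizes it (`eq_one_of_comm`), and it has no
extension by an element of order two inside `Dˣ` (`no_ext`). -/

set_option autoImplicit false

namespace Cfsg.Agent.Elu.Am

theorem no_quat {K D : Type*} [Field K] [DivisionRing D] [Algebra K D] (h2 : (2 : D) ≠ 0)
    {i j : D} (hi : i * i = -1) (hj : j * j = -1) (hij : j * i = -(i * j)) {a b c : K}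
    (h : 1 + a ^ 2 + b ^ 2 + c ^ 2 = 0) : False := by
  obtain ⟨k, hk⟩ : ∃ k, k = i * j := ⟨_, rfl⟩
  have hik : i * k = -j := by rw [hk, ← mul_assoc, hi, neg_one_mul]
  have hki : k * i = j := by rw [hk, mul_assoc, hij, mul_neg, ← mul_assoc, hi]; simp
  have hkj : k * j = -i := by rw [hk, mul_assoc, hj, mul_neg_one]
  have hjk : j * k = i := by rw [hk, ← mul_assoc, hij, neg_mul, mul_assoc, hj]; simp
  have hkk : k * k = -1 := by rw [hk, ← mul_assoc, ← hk, hki, hj]
  rw [← hk] at hij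
  obtain ⟨x, hx⟩ : ∃ x, x = a • i + b • j + c • k := ⟨_, rfl⟩
  have hxx : x * x = 1 := by
    have : (1 : D) = (-(a ^ 2 + b ^ 2 + c ^ 2)) • (1 : D) := by
      rw [show -(a ^ 2 + b ^ 2 + c ^ 2) = 1 by linear_combination -h, one_smul]
    rw [this, hx]
    simp only [mul_add, add_mul, smul_mul_assoc, mul_smul_comm, hi, hj, hij, ← hk, hik, hki, hkj,
      hjk, hkk]
    module
  have h1 : i * x * i = -(a • i) + b • j + c • k := by
    rw [hx]
    simp only [mul_add, add_mul, smul_mul_assoc, mul_smul_comm, hi, hj, hij, ← hk, hik, hki, hkj,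
      hjk, hkk, neg_mul, one_mul]
    module
  have h3 : j * (a • i) * j = a • i := by
    simp only [smul_mul_assoc, mul_smul_comm, hij, neg_mul, hkj, neg_neg]
  have h4 : i * x * i = -x ∧ j * x * j = -x := by
    rcases mul_self_eq_one_iff.1 hxx with h | h <;> simp [h, hi, hj]
  have h5 : x + x = a • i + a • i := by
    have := h4.1
    rw [h1] at this
    linear_combination (norm := module) hx + this
  have h6 : -x + -x = a • i + a • i := by
    rw [← h4.2, ← add_mul, ← mul_add, h5, mul_add, add_mul, h3]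
  have h7 : 2 * (2 * x) = 0 := by
    rw [two_mul, two_mul]
    nth_rewrite 1 [h5]
    rw [← h6]; abel
  have h8 : x = 0 := by simpa [h2] using h7
  rw [h8] at hxx; simp at hxx

theorem no_quat_comm {D : Type*} [DivisionRing D] [CharZero D] {i j u z : D} (hi : i * i = -1)
    (hj : j * j = -1) (hij : j * i = -(i * j)) (hu : u ^ 2 = 5) {r : ℕ} (hr : r.Coprime 20)
    (hz : z ^ r = 1) (hui : u * i = i * u) (huj : u * j = j * u) (hzi : z * i = i * z)
    (hzj : z * j = j * z) (huz : u * z = z * u) : z = 1 := by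
  by_contra hz1
  let E : Subfield D :=
    { Subring.centralizer {u, z} with inv_mem' := fun x hx => Set.inv_mem_centralizer₀ hx }
  have hE : ∀ x, x ∈ E ↔ u * x = x * u ∧ z * x = x * z := fun x => by
    change x ∈ Subring.centralizer {u, z} ↔ _
    simp [Subring.mem_centralizer_iff]
  have : CharZero E := ⟨fun m n h => by exact_mod_cast congrArg Subtype.val h⟩
  have : CharZero (Subring.center E) := ⟨fun m n h => by exact_mod_cast congrArg Subtype.val h⟩
  let u' : Subring.center E := ⟨⟨u, (hE _).2 ⟨rfl, huz.symm⟩⟩,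
    Subring.mem_center_iff.2 fun g => Subtype.ext ((hE _).1 g.2).1.symm⟩
  let z' : Subring.center E := ⟨⟨z, (hE _).2 ⟨huz, rfl⟩⟩,
    Subring.mem_center_iff.2 fun g => Subtype.ext ((hE _).1 g.2).2.symm⟩
  obtain ⟨a, b, c, h⟩ := exists_three_sq (u := u') (z := z') (Subtype.ext (Subtype.ext hu)) hr
    (Subtype.ext (Subtype.ext hz)) fun h => hz1 (congrArg Subtype.val (congrArg Subtype.val h))
  exact no_quat (D := E) two_ne_zero (i := ⟨i, (hE _).2 ⟨hui, hzi⟩⟩) (j := ⟨j, (hE _).2 ⟨huj, hzj⟩⟩)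
    (Subtype.ext hi) (Subtype.ext hj) (Subtype.ext hij) h

/-- The group `SL(2,5)`. -/
abbrev S5 := Matrix.SpecialLinearGroup (Fin 2) (ZMod 5)

/-- upper unitriangular generator -/
def ga : S5 := ⟨!![1, 1; 0, 1], by decide⟩
/-- lower unitriangular generator -/
def gb : S5 := ⟨!![1, 0; 4, 1], by decide⟩
/-- the Weyl element -/
def gw : S5 := ⟨!![0, 1; 4, 0], by decide⟩
/-- a diagonal element of order four -/
def gd : S5 := ⟨!![2, 0; 0, 3], by decide⟩

theorem facts : ga ^ 5 = 1 ∧ ga ≠ 1 ∧ gb ^ 5 = 1 ∧ ga ≠ gb ∧ (ga * gb) ^ 3 = -1 ∧ ga * gb ≠ -1 ∧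
    gw = ga * gb * ga ∧ gw * gw = -1 ∧ gd * gd = -1 ∧ gd * gw = -1 * (gw * gd) ∧
    gd = ga ^ 2 * gb ^ 3 * ga ^ 2 * gw ^ 3 ∧ gw * ga * gw⁻¹ = gb ∧ gw * gb * gw⁻¹ = ga ∧
    (-1 : S5) ≠ 1 ∧ ga * gb * ga = gb * ga * gb := by
  decide +kernel

theorem fact5 : ∀ x : S5, x ^ 5 = 1 → x ≠ 1 → ∃ g : S5, g * x = ga * g ∨ g * x = ga ^ 2 * g := by
  decide +kernel

theorem fact6 : ∀ y : S5, ga * y * ga = y * ga * y →
    y = ga ∨ ∃ k : Fin 5, ga ^ k.val * y = gb * ga ^ k.val := by
  decide +kernel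

theorem fact7 : ∀ y : S5, ga ^ 2 * y * ga ^ 2 = y * ga ^ 2 * y →
    y = ga ^ 2 ∨ ∃ k : Fin 5, ga ^ k.val * y = gb ^ 3 * ga ^ k.val := by
  decide +kernel

theorem fact8 : ∀ z : S5, z * ga = ga * z → z * gb = gb * z → z = 1 ∨ z = -1 := by
  decide +kernel

variable {D : Type*} [DivisionRing D] {F : S5 →* D}

theorem map_neg_one' (hF : Function.Injective F) : F (-1) = -1 := by
  have h : F (-1) * F (-1) = 1 := by rw [← map_mul]; simp
  refine (mul_self_eq_one_iff.1 h).resolve_left fun h1 => ?_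
  exact facts.2.2.2.2.2.2.2.2.2.2.2.2.2.1 (hF (h1.trans (map_one F).symm))

theorem quat_rel (hF : Function.Injective F) : F gw * F gw = -1 ∧ F gd * F gd = -1 ∧
    F gd * F gw = -(F gw * F gd) := by
  obtain ⟨-, -, -, -, -, -, -, h1, h2, h3, -⟩ := facts
  refine ⟨?_, ?_, ?_⟩
  · rw [← map_mul, h1, map_neg_one' hF]
  · rw [← map_mul, h2, map_neg_one' hF]
  · rw [← map_mul, h3, map_mul, map_neg_one' hF, map_mul, neg_one_mul]

theorem charZero (hF : Function.Injective F) : CharZero D := by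
  obtain ⟨p, hp⟩ := CharP.exists D
  have h2 : (2 : D) ≠ 0 := by
    intro h
    have h1 : F (-1) = F 1 := by
      rw [map_neg_one' hF, map_one, neg_eq_iff_add_eq_zero, one_add_one_eq_two, h]
    exact facts.2.2.2.2.2.2.2.2.2.2.2.2.2.1 (hF h1)
  rcases CharP.char_is_prime_or_zero D p with hp' | rfl
  · have : Fact p.Prime := ⟨hp'⟩
    let _ : Algebra (ZMod p) D := ZMod.algebra D p
    obtain ⟨a, b, hab⟩ := ZMod.sq_add_sq p (-1)
    obtain ⟨h1, h3, h4⟩ := quat_rel hF
    exact (no_quat (K := ZMod p) h2 h1 h3 h4 (a := a) (b := b) (c := 0)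
      (by linear_combination hab)).elim
  · exact CharP.charP_to_charZero D

theorem five_sum (hF : Function.Injective F) :
    1 + F ga + F ga ^ 2 + F ga ^ 3 + F ga ^ 4 = 0 := by
  have h1 : F ga - 1 ≠ 0 := sub_ne_zero.2 fun h => facts.2.1 (hF (h.trans (map_one F).symm))
  have h5 : F ga ^ 5 = 1 := by rw [← map_pow, facts.1, map_one]
  refine (mul_eq_zero.1 ?_).resolve_left h1
  rw [← sub_eq_zero.2 h5]; noncomm_ring

/-- The central square root of five. -/
theorem sqrt_five (hF : Function.Injective F) {u : D} (hu : u = 1 + 2 * (F ga + F ga ^ 4)) :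
    u ^ 2 = 5 ∧ u * F ga = F ga * u ∧ u * F gb = F gb * u ∧ u * F gw = F gw * u ∧
      u * F gd = F gd * u := by
  obtain ⟨h5, -, -, -, h6, h7, h8, h9, -, -, h10, -⟩ := facts
  have hs := five_sum hF
  have ha5 : F ga ^ 5 = 1 := by rw [← map_pow, h5, map_one]
  have ha : Commute u (F ga) := by rw [hu]; unfold Commute SemiconjBy; noncomm_ring
  obtain ⟨s, hs'⟩ : ∃ s, s = F (ga * gb) := ⟨_, rfl⟩
  obtain ⟨a, ha'⟩ : ∃ a, a = F ga := ⟨_, rfl⟩
  have hs3 : s ^ 3 = -1 := by rw [hs', ← map_pow, h6, map_neg_one' hF]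
  have hs2 : s * s = s - 1 := by
    have h1 : s + 1 ≠ 0 := fun h => h7 (hF (by
      rw [map_neg_one' hF, ← hs']; exact eq_neg_of_add_eq_zero_left h))
    have : (s + 1) * (s * s - (s - 1)) = 0 := by
      rw [← eq_neg_iff_add_eq_zero.1 hs3]; noncomm_ring
    exact sub_eq_zero.1 ((mul_eq_zero.1 this).resolve_left h1)
  have hw : s * a * (s * a) = -1 := by
    rw [hs', ha', ← map_mul, ← h8, ← map_mul, h9, map_neg_one' hF]
  rw [← ha'] at ha5 hs hu ha
  have hsu : Commute u s := by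
    have e1 : a * s * a = s - 1 := by
      have : s * s * (s * a * (s * a)) = s * s * -1 := by rw [hw]
      have e : s * s * (s * a * (s * a)) = s ^ 3 * (a * s * a) := by noncomm_ring
      rw [e, hs3, hs2] at this
      rw [← neg_neg (a * s * a), show -(a * s * a) = 1 - s by simpa using this, neg_sub]
    have e2 : s * a = a ^ 4 * (s - 1) := by
      rw [← e1, ← mul_assoc, ← mul_assoc, ← pow_succ, ha5, one_mul]
    have e3 : a * s = (s - 1) * a ^ 4 := by
      rw [← e1, mul_assoc, ← pow_succ', ha5, mul_one]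
    have e4 : (a + a ^ 4) * s = s * (a + a ^ 4) := by
      rw [add_mul, mul_add, e2, e3]; noncomm_ring
    rw [hu]
    exact (Commute.one_left s).add_left ((Commute.ofNat_left 2 s).mul_left e4)
  have hb : Commute u (F gb) := by
    have : F gb = a ^ 4 * s := by
      rw [hs', map_mul, ← ha', ← mul_assoc, ← pow_succ, ha5, one_mul]
    rw [this]; exact (ha.pow_right 4).mul_right hsu
  have hw' : Commute u (F gw) := by
    rw [h8, map_mul, ← hs', ← ha']; exact hsu.mul_right ha
  refine ⟨?_, ha' ▸ ha, hb, hw', ?_⟩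
  · have : u ^ 2 = 1 + 1 + 1 + 1 + 1 + 4 * (1 + a + a ^ 2 + a ^ 3 + a ^ 4) +
        4 * ((1 + 1 + a ^ 3) * (a ^ 5 - 1)) := by
      rw [hu]; noncomm_ring
    rw [this, hs, ha5]; norm_num
  · rw [h10]
    simp only [map_mul, map_pow, ← ha']
    exact (((ha.pow_right 2).mul_right (hb.pow_right 3)).mul_right (ha.pow_right 2)).mul_right
      (hw'.pow_right 3)

theorem eq_one_of_comm (hF : Function.Injective F) {z : D} {r : ℕ} (hr : r.Coprime 20)
    (hz : z ^ r = 1) (h : ∀ g, z * F g = F g * z) : z = 1 := by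
  have := charZero hF
  obtain ⟨h1, h2, h3⟩ := quat_rel hF
  obtain ⟨h4, -, -, h5, h6⟩ := sqrt_five hF rfl
  refine no_quat_comm h1 h2 h3 h4 hr hz h5 h6 (h _) (h _) ?_
  have ha : Commute (F ga) z := (h _).symm
  exact (Commute.one_left z).add_left ((Commute.ofNat_left 2 z).mul_left
    (ha.add_left (ha.pow_left 4)))

theorem no_ext (hF : Function.Injective F) (T : Set D) (h0 : ∀ h ∈ T, h ≠ 0)
    (h1 : ∀ h ∈ T, ∀ g, F g * h ∈ T) (h2 : ∀ h ∈ T, ∀ g, ∃ g', h * F g = F g' * h)
    (h3 : ∀ h ∈ T, ∃ g, h * h = F g) (h4 : ∀ h ∈ T, ∀ g, h ≠ F g) {h : D} (hh : h ∈ T) :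
    False := by
  have := charZero hF
  obtain ⟨f1, f2, f3, f4, -, -, f5, f6, -, -, -, f7, f8, -, f9⟩ := facts
  have hsq : ∀ h ∈ T, h * h * F ga = F ga * (h * h) → h * h * F gb = F gb * (h * h) →
      h * h = -1 := by
    intro h hh ha hb
    obtain ⟨z, hz⟩ := h3 h hh
    rw [hz, ← map_mul, ← map_mul] at ha hb
    rcases fact8 z (hF ha) (hF hb) with rfl | rfl
    · rw [map_one] at hz
      rcases mul_self_eq_one_iff.1 hz with e | e
      · exact (h4 h hh 1 (e.trans (map_one F).symm)).elim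
      · exact (h4 h hh (-1) (e.trans (map_neg_one' hF).symm)).elim
    · rw [hz, map_neg_one' hF]
  have hmul : ∀ {h : D} {x x' y y' : S5}, h * F x = F x' * h → h * F y = F y' * h →
      h * F (x * y) = F (x' * y') * h := by
    intro h x x' y y' e1 e2
    rw [map_mul, map_mul, ← mul_assoc, e1, mul_assoc, e2, mul_assoc]
  have hpow : ∀ {h : D} {x x' : S5} (n : ℕ), h * F x = F x' * h →
      h * F (x ^ n) = F (x' ^ n) * h := by
    intro h x x' n e
    induction n with
    | zero => simp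
    | succ n ih => rw [pow_succ, pow_succ]; exact hmul ih e
  have hinj : ∀ h ∈ T, ∀ {x x' y y' : S5}, h * F x = F x' * h → h * F y = F y' * h →
      (x = y ↔ x' = y') := by
    intro h hh x x' y y' e1 e2
    constructor
    · rintro rfl; exact hF (mul_right_cancel₀ (h0 h hh) (e1.symm.trans e2))
    · rintro rfl; exact hF (mul_left_cancel₀ (h0 h hh) (e1.trans e2.symm))
  have hleft : ∀ {h : D} {x x' g y : S5}, h * F x = F x' * h → g * x' = y * g →
      F g * h * F x = F y * (F g * h) := by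
    intro h x x' g y e1 e2
    rw [mul_assoc, e1, ← mul_assoc, ← map_mul, e2, map_mul, mul_assoc]
  have h11 : h * F 1 = F 1 * h := by simp
  obtain ⟨x, hx⟩ := h2 h hh ga
  obtain ⟨g, hg⟩ := fact5 x ((hinj h hh (hpow 5 hx) h11).1 f1)
    fun e => f2 ((hinj h hh hx h11).2 e)
  have hh1 := h1 h hh g
  obtain ⟨y, hy⟩ := h2 _ hh1 gb
  rcases hg with hg | hg
  · have ha := hleft hx hg
    obtain ⟨k, hk⟩ := (fact6 y ((hinj _ hh1 (hmul (hmul ha hy) ha)
      (hmul (hmul hy ha) hy)).1 f9)).resolve_left fun e => f4 ((hinj _ hh1 ha hy).2 e.symm)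
    have hh2 := h1 _ hh1 (ga ^ k.val)
    have hb := hleft hy hk
    replace ha := hleft ha (g := ga ^ k.val) (y := ga) (by group)
    generalize F (ga ^ k.val) * (F g * h) = c at hh2 ha hb
    have hc := hsq c hh2 (by rw [mul_assoc, ha, ← mul_assoc, ha, mul_assoc])
      (by rw [mul_assoc, hb, ← mul_assoc, hb, mul_assoc])
    have hw : Commute c (F gw) := by rw [f5]; exact hmul (hmul ha hb) ha
    rcases hw.mul_self_eq_mul_self_iff.1 (hc.trans (quat_rel hF).1.symm) with e | e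
    · exact h4 c hh2 gw e
    · exact h4 c hh2 (-1 * gw) (by rw [map_mul, map_neg_one' hF, neg_one_mul, e])
  · have ha := hleft hx hg
    obtain ⟨k, hk⟩ := (fact7 y ((hinj _ hh1 (hmul (hmul ha hy) ha)
      (hmul (hmul hy ha) hy)).1 f9)).resolve_left fun e => f4 ((hinj _ hh1 ha hy).2 e.symm)
    have hh2 := h1 _ hh1 (ga ^ k.val)
    have hb := hleft hy hk
    replace ha := hleft ha (g := ga ^ k.val) (y := ga ^ 2) (by group)
    generalize F (ga ^ k.val) * (F g * h) = c at hh2 ha hb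
    have hh3 := h1 _ hh2 gw
    have ha3 := hleft ha (g := gw) (y := gb ^ 2) (by decide +kernel)
    have hb3 := hleft hb (g := gw) (y := ga ^ 3) (by decide +kernel)
    obtain ⟨u, hu⟩ : ∃ u : D, u = 1 + 2 * (F ga + F ga ^ 4) := ⟨_, rfl⟩
    obtain ⟨u5, -, -, uw, -⟩ := sqrt_five hF hu
    have hcu : c * u = -u * c := by
      have e4 := hpow 4 ha
      have e8 : (ga ^ 2) ^ 4 = ga ^ 3 := by
        rw [← pow_mul, show 2 * 4 = 5 + 3 by rfl, pow_add, f1, one_mul]
      rw [e8] at e4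
      simp only [map_pow] at ha e4
      have e : -u = 1 + 2 * (F ga ^ 2 + F ga ^ 3) -
          2 * (1 + F ga + F ga ^ 2 + F ga ^ 3 + F ga ^ 4) := by rw [hu]; noncomm_ring
      rw [e, five_sum hF, mul_zero, sub_zero, hu, two_mul, two_mul]
      simp only [mul_add, add_mul, ha, e4, mul_one, one_mul]
    have htu : F gw * c * u = -(u * (F gw * c)) := by
      rw [mul_assoc, hcu, ← mul_assoc, mul_neg, ← uw, neg_mul, mul_assoc]
    generalize F gw * c = t at hh3 ha3 hb3 htu
    have e6 : ∀ x : S5, x ^ 5 = 1 → x ^ 6 = x := fun x hx => by rw [pow_succ, hx, one_mul]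
    have ht := hsq t hh3
      (by rw [mul_assoc, ha3, ← mul_assoc, hpow 2 hb3, ← pow_mul, e6 _ f1, mul_assoc])
      (by rw [mul_assoc, hb3, ← mul_assoc, hpow 3 ha3, ← pow_mul, e6 _ f3, mul_assoc])
    have e1 : (u + 2 * t) * (u + 2 * t) = 1 := by
      have : (u + 2 * t) * (u + 2 * t) = u ^ 2 + 2 * (t * u + u * t) + 4 * (t * t) := by
        noncomm_ring
      rw [this, u5, ht, htu]; norm_num
    have e2 : u * (u + 2 * t) = (u + 2 * t) * u := by
      rcases mul_self_eq_one_iff.1 e1 with e | e <;> simp [e]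
    have e3 : 4 * (u * t) = 0 := by
      have : 4 * (u * t) = u * (u + 2 * t) - (u + 2 * t) * u + 2 * (t * u + u * t) := by
        noncomm_ring
      rw [this, e2, htu]; simp
    have hu0 : u ≠ 0 := by rintro rfl; norm_num at u5
    exact mul_ne_zero (by norm_num) (mul_ne_zero hu0 (h0 t hh3)) e3

end Cfsg.Agent.Elu.Am
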