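import Cfsg.Agent.Elu.XsTool

/-! Eigenspaces of elements normalising an absolutely irreducible group with scalar commutators
(`Es`): the bounds `Es.gen`, `Es.half`. -/

set_option autoImplicit false
set_option linter.unusedSectionVars false

namespace Cfsg.Agent.Elu

open Module Polynomial Cfsg.Agent.Classical

universe u

variable {F : Type*} [Field F] [Finite F] {V : Type u} [AddCommGroup V] [Module F V]
  [FiniteDimensional F V] {r : ℕ} [hr : Fact r.Prime] {χ : AddChar (ZMod r) F}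

theorem finrank_le_of_map {z : End F V} (hz : Function.Injective z) {A B : Submodule F V}
    (h : ∀ v ∈ A, z v ∈ B) : finrank F A ≤ finrank F B :=
  LinearMap.finrank_le_finrank_of_injective (f := z.restrict h) fun _ _ e =>
    Subtype.ext (hz (congrArg Subtype.val e))

theorem finrank_add_le {A B U : Submodule F V} (hA : A ≤ U) (hB : B ≤ U)
    (h : ∀ v ∈ A, v ∈ B → v = 0) : finrank F A + finrank F B ≤ finrank F U := by
  rw [← Submodule.finrank_sup_add_finrank_inf_eq, (Submodule.disjoint_def.2 h).eq_bot, finrank_bot]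
  exact Submodule.finrank_mono (sup_le hA hB)

theorem two_kd_le {h x : End F V} (hx : Function.Injective x) :
    2 * kd h (X - C 1) ≤ finrank F V + finrank F ↥(kerA h (X - C 1) ⊓ (kerA h (X - C 1)).map x) := by
  have h4 := Submodule.finrank_sup_add_finrank_inf_eq (kerA h (X - C 1)) ((kerA h (X - C 1)).map x)
  have h5 := Submodule.finrank_le (kerA h (X - C 1) ⊔ (kerA h (X - C 1)).map x)
  rw [← (Submodule.equivMapOfInjective _ hx _).finrank_eq] at h4
  change 2 * finrank F (kerA h (X - C 1)) ≤ _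
  omega

theorem pow_apply_of_eq {y : End F V} {c : F} {v : V} (h : y v = c • v) (k : ℕ) : (y ^ k) v = c ^ k • v := by
  induction k with
  | zero => simp
  | succ k ih => rw [pow_succ', End.mul_apply, ih, map_smul, h, smul_smul, pow_succ]

/-- `χ` parametrises the `r`-th roots of unity. -/
structure Ch (χ : AddChar (ZMod r) F) : Prop where
  inj : Function.Injective χ
  root : ∀ t, t ^ r = 1 ↔ ∃ a, χ a = t
  ne : (r : F) ≠ 0
  ord : orderOf (Nat.card F : ZMod r) = 1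

namespace Ch

variable (E : Ch χ) {h x y u : End F V}
include E

theorem sum (hy : y ^ r = 1) {W : Submodule F V} (hW : Inv y W) :
    finrank F W = ∑ i, finrank F ↥(kerA y (X - C (χ i)) ⊓ W) := by
  obtain ⟨A, hA⟩ := exists_dg_chi E.ne E.ord E.root (hW.res_pow' hy)
  rw [← hA.card, Multiset.card_map, ← Multiset.sum_count_eq_card (s := Finset.univ) (by simp)]
  refine Finset.sum_congr rfl fun i _ => ?_
  rw [← hA.kd_chi E.inj E.root, ← (Submodule.comapSubtypeEquivOfLe inf_le_right).finrank_eq]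
  exact congrArg (fun U : Submodule F W => finrank F U) (Submodule.ext fun v => by
    simp [mem_kerA_X_sub_C, Subtype.ext_iff, -AddChar.map_zero_eq_one])

theorem eq_zero {a b : ZMod r} (hab : a ≠ b) {v : V} (h : χ a • v = χ b • v) : v = 0 :=
  by_contra fun hv => hab (E.inj (smul_left_injective F hv h))

theorem fix_le (hy : y ^ r = 1) (hx : Function.Injective x) {s : ZMod r} (hs : s ≠ 0)
    (h : y * x = χ s • (x * y)) : r * kd y (X - C 1) ≤ finrank F V := by
  have h1 : ∀ k : ℕ, kd y (X - C (χ 0)) ≤ kd y (X - C (χ (k * s))) := fun k => by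
    induction k with
    | zero => simp
    | succ k ih =>
      refine ih.trans (finrank_le_of_map hx fun v hv => mem_kerA_X_sub_C.2 ?_)
      rw [← End.mul_apply, h, LinearMap.smul_apply, End.mul_apply, mem_kerA_X_sub_C.1 hv, map_smul,
        smul_smul, ← χ.map_add_eq_mul]
      congr 2; push_cast; ring
  rw [← finrank_top, E.sum hy (W := ⊤) fun _ _ => trivial, ← χ.map_zero_eq_one]
  have := Finset.card_nsmul_le_sum Finset.univ (fun i => finrank F ↥(kerA y (X - C (χ i)) ⊓ ⊤))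
    (kd y (X - C (χ 0))) fun i _ => by
      have := h1 (i / s).val
      rw [ZMod.natCast_zmod_val, div_mul_cancel₀ _ hs] at this
      rw [inf_top_eq]; exact this
  rwa [Finset.card_univ, ZMod.card, smul_eq_mul] at this

theorem quad (h3 : r ≠ 3) (hx : Function.Injective x) {s : ZMod r} (hs : s ≠ 0) (hy : y ^ r = 1)
    (hu : u ^ r = 1) (h1 : h * x = y * x * h) (h2 : h * y = u * y * h) (h4 : x * y = χ s • (y * x))
    (ux : u * x = x * u) (uy : u * y = y * u) (uh : u * h = h * u) :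
    2 * kd h (X - C 1) ≤ finrank F V := by
  have a1 : ∀ v, h (x v) = y (x (h v)) := fun v => congrArg (· v) h1
  have a2 : ∀ v, h (y v) = u (y (h v)) := fun v => congrArg (· v) h2
  have a3 : ∀ v, u (x v) = x (u v) := fun v => congrArg (· v) ux
  have a4 : ∀ v, u (y v) = y (u v) := fun v => congrArg (· v) uy
  have a5 : ∀ v, u (h v) = h (u v) := fun v => congrArg (· v) uh
  rw [← finrank_top, E.sum hu (W := ⊤) fun _ _ => trivial]
  refine (congrArg _ (E.sum hu (W := kerA h (X - C 1)) fun v hv => mem_fixA.2 (by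
    rw [← a5, mem_fixA.1 hv]))).trans_le ?_
  rw [Finset.mul_sum]
  refine Finset.sum_le_sum fun i _ => ?_
  rw [inf_top_eq]
  rcases ne_or_eq i 0 with hi | rfl
  · rw [two_mul]
    nth_rw 2 [(Submodule.equivMapOfInjective _ hx _).finrank_eq]
    refine finrank_add_le inf_le_left ?_ ?_
    · rintro _ ⟨v, hv, rfl⟩
      exact mem_kerA_X_sub_C.2 (by rw [a3, mem_kerA_X_sub_C.1 hv.1, map_smul])
    rintro _ hv ⟨w, hw, rfl⟩
    have b1 := a1 w
    have b2 := a2 (x w)
    rw [mem_fixA.1 hw.2, mem_fixA.1 hv.2] at b1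
    rw [mem_fixA.1 hv.2, ← b1, mem_fixA.1 hv.2, mem_kerA_X_sub_C.1 hv.1] at b2
    exact E.eq_zero hi (by simpa using b2.symm)
  rw [χ.map_zero_eq_one]
  let W : ZMod r → ℕ → Submodule F V := fun a k => kerA u (X - C 1) ⊓ LinearMap.ker (h - χ a • y ^ k)
  have mW : ∀ a k v, v ∈ W a k ↔ u v = v ∧ h v = χ a • (y ^ k) v := fun a k v => by
    simp [W, mem_fixA, sub_eq_zero, -map_one]
  have b1 : ∀ k : ℕ, x * y ^ k = χ (k * s) • (y ^ k * x) := fun k => by
    induction k with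
    | zero => simp
    | succ k ih =>
      rw [pow_succ, ← mul_assoc, ih, smul_mul_assoc, mul_assoc, h4, mul_smul_comm, smul_smul,
        ← χ.map_add_eq_mul, mul_assoc]
      congr 2; push_cast; ring
  have b2 : ∀ a k, finrank F (W a k) ≤ finrank F (W (a + k * s) (k + 1)) := fun a k =>
    finrank_le_of_map hx fun v hv => by
      rw [mW] at hv ⊢
      refine ⟨by rw [a3, hv.1], ?_⟩
      rw [a1, hv.2, map_smul, ← End.mul_apply x, b1, χ.map_add_eq_mul, mul_smul, pow_succ']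
      simp
  have b3 : Inv y (kerA u (X - C 1)) := fun v hv => mem_fixA.2 (by rw [a4, mem_fixA.1 hv])
  let e : ZMod r → ZMod r → ℕ := fun j t =>
    finrank F ↥(kerA y (X - C (χ j)) ⊓ kerA u (X - C 1) ⊓ kerA h (X - C (χ t)))
  have b4 : ∀ a k, finrank F (W a k) ≤ ∑ j, e j (a + k * j) := fun a k => by
    rw [E.sum hy (W := W a k) fun v hv => ?_]
    · refine Finset.sum_le_sum fun j _ => Submodule.finrank_mono fun v hv => ⟨⟨hv.1, hv.2.1⟩,
        mem_kerA_X_sub_C.2 ?_⟩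
      rw [((mW _ _ _).1 hv.2).2, pow_apply_of_eq (mem_kerA_X_sub_C.1 hv.1), χ.map_add_eq_mul, mul_smul,
        ← nsmul_eq_mul, χ.map_nsmul_eq_pow]
    · rw [mW] at hv ⊢
      refine ⟨by rw [a4, hv.1], ?_⟩
      rw [a2, a4, a5, hv.1, hv.2, map_smul, ← End.mul_apply y, ← End.mul_apply _ y, ← pow_succ, ← pow_succ']
  have b5 : ∀ j a b, a ≠ b → e j a + e j b ≤ finrank F ↥(kerA y (X - C (χ j)) ⊓ kerA u (X - C 1)) :=
    fun j a b hab => finrank_add_le inf_le_left inf_le_left fun v c d =>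
      E.eq_zero hab ((mem_kerA_X_sub_C.1 c.2).symm.trans (mem_kerA_X_sub_C.1 d.2))
  have b6 : (3 : ZMod r) ≠ 0 := fun h => h3 ((Nat.prime_dvd_prime_iff_eq hr.out Nat.prime_three).1
    ((ZMod.natCast_eq_zero_iff 3 r).1 h))
  have b7 : ∑ j, (e j 0 + e j j + e j (s + 2 * j) + e j (s + 2 * s + 3 * j)) ≤
      2 * finrank F (kerA u (X - C 1)) := by
    rw [E.sum hy b3, Finset.mul_sum]
    refine Finset.sum_le_sum fun j _ => ?_
    by_cases hj : j = -s
    · have := b5 j 0 j (by grind)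
      have := b5 j (s + 2 * j) (s + 2 * s + 3 * j) (by grind)
      omega
    · have := b5 j 0 (s + 2 * s + 3 * j) (by grind)
      have := b5 j j (s + 2 * j) (by grind)
      omega
  have c0 : finrank F ↥(kerA u (X - C 1) ⊓ kerA h (X - C 1)) ≤ finrank F (W 0 0) :=
    Submodule.finrank_mono fun v hv => (mW _ _ _).2 ⟨mem_fixA.1 hv.1, by simpa using mem_fixA.1 hv.2⟩
  have c1 := b2 0 0
  have c2 := b2 0 1
  have c3 := b2 s 2
  have c4 := b4 0 0
  have c5 := b4 0 1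
  have c6 := b4 s 2
  have c7 := b4 (s + 2 * s) 3
  rw [Nat.cast_zero, zero_mul, add_zero] at c1
  rw [Nat.cast_one, one_mul, zero_add] at c2
  simp only [Finset.sum_add_distrib, Nat.cast_zero, zero_mul, add_zero, Nat.cast_one, one_mul, zero_add,
    Nat.cast_ofNat, Nat.reduceAdd] at *
  omega

end Ch

/-- An absolutely irreducible group whose commutators are scalars of order dividing `r`. -/
structure Es (S : Subgroup (End F V)ˣ) (χ : AddChar (ZMod r) F) (b : (End F V)ˣ → (End F V)ˣ → ZMod r) :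
    Prop extends Ch χ where
  nt : Nontrivial V
  schur : ∀ m : End F V, (∀ x ∈ S, m * x.1 = x.1 * m) → ∃ c : F, m = c • 1
  comm : ∀ x ∈ S, ∀ z ∈ S, x.1 * z.1 = χ (b x z) • (z.1 * x.1)

namespace Es

variable {S : Subgroup (End F V)ˣ} {b : (End F V)ˣ → (End F V)ˣ → ZMod r} (E : Es S χ b)
  {x y z h : (End F V)ˣ}
include E

theorem uniq {a : ZMod r} (hx : x ∈ S) (hz : z ∈ S) (h : x.1 * z.1 = χ a • (z.1 * x.1)) : b x z = a := by
  have := E.nt
  exact E.inj (smul_left_injective F (z * x).ne_zero ((E.comm x hx z hz).symm.trans h))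

theorem mul (hx : x ∈ S) (hy : y ∈ S) (hz : z ∈ S) : b (x * y) z = b x z + b y z :=
  E.uniq (mul_mem hx hy) hz (by
    rw [Units.val_mul, mul_assoc, E.comm y hy z hz, mul_smul_comm, ← mul_assoc, E.comm x hx z hz,
      smul_mul_assoc, smul_smul, add_comm, χ.map_add_eq_mul, mul_assoc])

theorem symm (hx : x ∈ S) (hz : z ∈ S) : b z x = -b x z :=
  E.uniq hz hx (by rw [E.comm x hx z hz, smul_smul, ← χ.map_add_eq_mul]; simp)

theorem self (hx : x ∈ S) : b x x = 0 := E.uniq hx hx (by simp)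

theorem inv (hx : x ∈ S) (hz : z ∈ S) : b x⁻¹ z = -b x z := by
  have := E.mul hx (inv_mem hx) hz
  rw [mul_inv_cancel, E.uniq (a := 0) (one_mem S) hz (by simp)] at this
  linear_combination -this

theorem mul' (hx : x ∈ S) (hy : y ∈ S) (hz : z ∈ S) : b z (x * y) = b z x + b z y := by
  rw [E.symm (mul_mem hx hy) hz, E.mul hx hy hz, E.symm hx hz, E.symm hy hz]; ring

theorem conj (hh : ∀ x ∈ S, h * x * h⁻¹ ∈ S) (hx : x ∈ S) (hz : z ∈ S) :
    b (h * x * h⁻¹) (h * z * h⁻¹) = b x z :=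
  E.uniq (hh x hx) (hh z hz) (by
    have := congrArg (fun t => h.1 * t * h⁻¹.1) (E.comm x hx z hz)
    simpa [mul_assoc] using this)

theorem scalar (hx : x ∈ S) (h : ∀ z ∈ S, b x z = 0) : ∃ c : F, x.1 = c • 1 :=
  E.schur _ fun z hz => by simpa [h z hz] using E.comm x hx z hz

omit E in
theorem one_of {v : V} (hv : v ≠ 0) (h1 : x ∈ MulAction.stabilizer (End F V)ˣ v) (h : ∃ c : F, x.1 = c • 1) :
    x = 1 := by
  obtain ⟨c, hc⟩ := h
  have h2 : x.1 v = v := h1
  rw [hc] at h2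
  exact Units.ext (by rw [hc, smul_left_injective F hv (h2.trans (one_smul F v).symm)]; simp)

theorem pow_r (hx : x ∈ S) {v : V} (hv : v ≠ 0) (h1 : x ∈ MulAction.stabilizer (End F V)ˣ v) :
    x.1 ^ r = 1 := by
  have : ∀ z ∈ S, ∀ k : ℕ, b (x ^ k) z = k * b x z := fun z hz k => by
    induction k with
    | zero => simpa using E.uniq (a := 0) (one_mem S) hz (by simp)
    | succ k ih => rw [pow_succ, E.mul (pow_mem hx k) hx hz, ih]; push_cast; ring
  exact congrArg Units.val (one_of hv (pow_mem h1 r) (E.scalar (pow_mem hx r) fun z hz => by simp [this z hz]))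

theorem stab (hx : x ∈ S) (hz : z ∈ S) {v : V} (hv : v ≠ 0) (h1 : x ∈ MulAction.stabilizer (End F V)ˣ v)
    (h2 : z ∈ MulAction.stabilizer (End F V)ˣ v) : b x z = 0 := by
  have := congrArg (· v) (E.comm x hx z hz)
  simp only [End.mul_apply, LinearMap.smul_apply, show x.1 v = v from h1, show z.1 v = v from h2] at this
  exact by_contra fun h => hv (E.eq_zero h (by simpa using this.symm))

theorem dvd (hn : ∀ c : F, h.1 ≠ c • 1) : r ∣ finrank F V := by
  obtain ⟨x, hx, z, hz, h1⟩ : ∃ x ∈ S, ∃ z ∈ S, b x z ≠ 0 := by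
    by_contra! h1
    refine (E.schur h.1 fun x hx => ?_).elim hn
    obtain ⟨c, hc⟩ := E.scalar hx (h1 x hx)
    simp [hc]
  have h2 := congrArg LinearMap.det (E.comm x hx z hz)
  rw [LinearMap.det_smul, map_mul, map_mul, mul_comm, eq_comm, mul_eq_right₀ (mul_ne_zero
    (z.isUnit.map _).ne_zero (x.isUnit.map _).ne_zero), ← χ.map_nsmul_eq_pow, ← χ.map_zero_eq_one] at h2
  simpa [h1, ZMod.natCast_eq_zero_iff] using E.inj h2

theorem gen (hh : ∀ x ∈ S, h * x * h⁻¹ ∈ S) (hn : ∀ c : F, h.1 ≠ c • 1) :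
    r * (2 * kd h.1 (X - C 1)) ≤ (r + 1) * finrank F V := by
  have inj : ∀ g : (End F V)ˣ, Function.Injective g.1 := fun g => ((End.isUnit_iff _).1 g.isUnit).1
  obtain ⟨x, hx, h1⟩ : ∃ x ∈ S, h * x * h⁻¹ * x⁻¹ ≠ 1 := by
    by_contra! h1
    exact (E.schur h.1 fun x hx => congrArg Units.val
      (mul_inv_eq_iff_eq_mul.1 (mul_inv_eq_one.1 (h1 x hx)))).elim hn
  have h2 := mul_mem (hh x hx) (inv_mem hx)
  have h3 : kerA h.1 (X - C 1) ⊓ (kerA h.1 (X - C 1)).map x.1 ≤ kerA (h * x * h⁻¹ * x⁻¹).1 (X - C 1) := by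
    rintro _ ⟨a, w, c, rfl⟩
    rw [mem_fixA, ← End.mul_apply, ← Units.val_mul, inv_mul_cancel_right, ← mem_fixA.1 c, ← End.mul_apply,
      ← Units.val_mul, inv_mul_cancel_right, mem_fixA.1 c]
    exact mem_fixA.1 a
  have h4 := (two_kd_le (h := h.1) (inj x)).trans (Nat.add_le_add_left (Submodule.finrank_mono h3) _)
  refine (Nat.mul_le_mul_left r h4).trans ?_
  rw [mul_add, add_one_mul, add_le_add_iff_left]
  generalize h * x * h⁻¹ * x⁻¹ = y at h1 h2
  rcases eq_or_ne (kerA y.1 (X - C 1)) ⊥ with h5 | h5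
  · rw [h5, finrank_bot]; exact Nat.zero_le _
  obtain ⟨v, a1, a2⟩ := (Submodule.ne_bot_iff _).1 h5
  obtain ⟨z, hz, a3⟩ : ∃ z ∈ S, b y z ≠ 0 := by
    by_contra! h6
    exact h1 (one_of a2 (mem_fixA.1 a1) (E.scalar h2 h6))
  exact E.fix_le (E.pow_r h2 a2 (mem_fixA.1 a1)) (inj z) a3 (E.comm y h2 z hz)

theorem half (hh : ∀ x ∈ S, h * x * h⁻¹ ∈ S) (hn : ∀ c : F, h.1 ≠ c • 1) {p : ℕ} (hp : p.Prime)
    (h2 : p ≠ 2) (h3 : r = 3 → p ≠ 3) (h1 : h ^ p = 1) : 2 * kd h.1 (X - C 1) ≤ finrank F V := by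
  by_contra! hc
  have inj : ∀ g : (End F V)ˣ, Function.Injective g.1 := fun g => ((End.isUnit_iff _).1 g.isUnit).1
  obtain ⟨A, hA⟩ : ∃ A : ℕ → (End F V)ˣ → (End F V)ˣ, ∀ k x, A k x = h ^ k * x * (h ^ k)⁻¹ := ⟨_, fun _ _ => rfl⟩
  have mA : ∀ k, ∀ x ∈ S, A k x ∈ S := fun k => by simpa only [hA] using Xs.pow_mem hh k
  have A0 : ∀ x, A 0 x = x := fun x => by simp [hA]
  have AA : ∀ j k x, A j (A k x) = A (j + k) x := fun j k x => by simp only [hA]; group
  have Am : ∀ k x y, A k (x * y) = A k x * A k y := fun k x y => by simp only [hA]; group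
  have Ai : ∀ k x, A k x⁻¹ = (A k x)⁻¹ := fun k x => by simp only [hA]; group
  have Ac : ∀ j k, ∀ x ∈ S, ∀ z ∈ S, b (A (j + k) x) (A j z) = b (A k x) z := fun j k x hx z hz => by
    rw [← AA, hA j, hA j, E.conj (Xs.pow_mem hh j) (mA k x hx) hz]
  have fx : ∀ x : (End F V)ˣ, ∃ v : V, v ≠ 0 ∧ h ∈ MulAction.stabilizer (End F V)ˣ v ∧
      ∀ k, A k x * x⁻¹ ∈ MulAction.stabilizer (End F V)ˣ v := fun x => by
    obtain ⟨⟨_, a, w, c, rfl⟩, d⟩ := (finrank_pos_iff_exists_ne_zero (R := F)).1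
      (show 0 < finrank F ↥(kerA h.1 (X - C 1) ⊓ (kerA h.1 (X - C 1)).map x.1) by
        have := two_kd_le (h := h.1) (inj x); omega)
    refine ⟨x.1 w, fun e => d (Subtype.ext e), mem_fixA.1 a, fun k => ?_⟩
    have a1 : h ^ k ∈ MulAction.stabilizer (End F V)ˣ (x • w) := pow_mem (mem_fixA.1 a) k
    have a2 : (h ^ k)⁻¹ ∈ MulAction.stabilizer (End F V)ˣ w := inv_mem (pow_mem (mem_fixA.1 c) k)
    change _ • (x • w) = x • w
    rw [MulAction.mem_stabilizer_iff] at a1 a2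
    rw [hA, mul_smul, inv_smul_smul, mul_smul, a2, mul_smul, a1]
  have triv : ∀ a, a.Coprime p → ¬ ∀ x ∈ S, ∀ z ∈ S, b (A a x) z = b x z := fun a ha H => by
    obtain ⟨v, a1, a2, -⟩ := fx 1
    have := one_of a1 (pow_mem a2 a) (E.schur _ fun x hx => by
      obtain ⟨v, a1, -, a3⟩ := fx x
      have := one_of a1 (a3 a) (E.scalar (mul_mem (mA a x hx) (inv_mem hx)) fun z hz => by
        rw [E.mul (mA a x hx) (inv_mem hx) hz, E.inv hx hz, H x hx z hz, add_neg_cancel])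
      rw [hA, mul_inv_eq_one, mul_inv_eq_iff_eq_mul] at this
      exact congrArg Units.val this)
    exact hn 1 (by rw [← pow_one h, ← ha, pow_gcd_eq_one.2 ⟨this, h1⟩]; simp)
  have pol : ∀ k, ∀ x ∈ S, ∀ z ∈ S, b (A k (x * z)) (x * z) =
      b (A k x) x + b (A k z) z + (b (A k x) z - b x (A k z)) := fun k x hx z hz => by
    rw [Am, E.mul (mA k x hx) (mA k z hz) (mul_mem hx hz), E.mul' hx hz (mA k x hx), E.mul' hx hz (mA k z hz),
      E.symm hx (mA k z hz)]
    ring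
  have q2 : ∀ x ∈ S, b (A 2 x) x = 2 * b (A 1 x) x := fun x hx => by
    obtain ⟨v, a1, -, a3⟩ := fx x
    have a4 := mA 1 x hx
    have a5 := mA 2 x hx
    have := E.stab (mul_mem a5 (inv_mem hx)) (mul_mem a4 (inv_mem hx)) a1 (a3 2) (a3 1)
    rw [E.mul a5 (inv_mem hx) (mul_mem a4 (inv_mem hx)), E.inv hx (mul_mem a4 (inv_mem hx)),
      E.mul' a4 (inv_mem hx) a5, E.mul' a4 (inv_mem hx) hx, E.symm (inv_mem hx) a5, E.symm (inv_mem hx) hx,
      E.inv hx a5, E.inv hx hx, E.self hx, E.symm a4 hx, E.symm a5 hx, Ac 1 1 x hx x hx] at this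
    linear_combination -this
  have rc : ∀ x ∈ S, ∀ z ∈ S, ∀ k, b (A (k + 4) x) z - 2 * b (A (k + 3) x) z + 2 * b (A (k + 1) x) z -
      b (A k x) z = 0 := fun x hx z hz k => by
    have a1 := mA (2 + k) x hx
    have a2 := q2 _ (mul_mem a1 hz)
    rw [pol 2 _ a1 z hz, pol 1 _ a1 z hz, q2 _ a1, q2 z hz, Ac 2 k x hx z hz, AA, AA,
      show 2 + k = 1 + (k + 1) by ring, Ac 1 _ x hx z hz] at a2
    ring_nf at a2 ⊢
    linear_combination a2
  have c2 : (2 : ℕ).Coprime p := (Nat.coprime_primes Nat.prime_two hp).2 h2.symm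
  by_cases r2 : r = 2
  · subst r2
    refine triv (2 ^ 2) (c2.pow_left 2) fun x hx z hz => ?_
    have := rc x hx z hz 0
    rw [A0, show (2 : ZMod 2) = 0 from rfl] at this
    linear_combination this
  have two : (2 : ZMod r) ≠ 0 := fun h => r2 ((Nat.prime_dvd_prime_iff_eq hr.out Nat.prime_two).1
    ((ZMod.natCast_eq_zero_iff 2 r).1 h))
  have cub : ∀ x ∈ S, ∀ z ∈ S, b (A 3 x) z - 3 * b (A 2 x) z + 3 * b (A 1 x) z - b x z = 0 := fun x hx z hz => by
    have a1 : ∀ k, b (A (k + 3) x) z - 3 * b (A (k + 2) x) z + 3 * b (A (k + 1) x) z - b (A k x) z =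
        (-1) ^ k * (b (A 3 x) z - 3 * b (A 2 x) z + 3 * b (A 1 x) z - b x z) := fun k => by
      induction k with
      | zero => simp [A0]
      | succ k ih => rw [pow_succ]; linear_combination rc x hx z hz k - ih
    have a2 := a1 p
    have a3 : ∀ k, A (p + k) x = A k x := fun k => by rw [← AA, hA p, h1]; simp
    rw [a3, a3, a3, ← add_zero p, a3, A0, add_zero, (hp.odd_of_ne_two h2).neg_one_pow] at a2
    exact (mul_eq_zero.1 (by linear_combination a2)).resolve_left two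
  by_cases r3 : r = 3
  · subst r3
    refine triv 3 ((Nat.coprime_primes Nat.prime_three hp).2 (h3 rfl).symm) fun x hx z hz => ?_
    have := cub x hx z hz
    rw [show (3 : ZMod 3) = 0 from rfl] at this
    linear_combination this
  obtain ⟨x, hx, a0⟩ : ∃ x ∈ S, b (A 1 x) x ≠ 0 := by
    by_contra! H
    refine triv 2 c2 fun x hx z hz => ?_
    have := pol 1 _ (mA 1 x hx) z hz
    rw [H _ (mul_mem (mA 1 x hx) hz), H _ (mA 1 x hx), H z hz, AA, Ac 1 0 x hx z hz, A0] at this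
    linear_combination -this
  obtain ⟨v, a1, a2, a3⟩ := fx x
  have m1 := mA 1 x hx
  have m2 := mA 2 x hx
  have m3 := mA 3 x hx
  have st : ∀ y ∈ MulAction.stabilizer (End F V)ˣ v, A 1 y * y⁻¹ ∈ MulAction.stabilizer (End F V)ˣ v :=
    fun y hy => by rw [hA, pow_one]; exact mul_mem (mul_mem (mul_mem a2 hy) (inv_mem a2)) (inv_mem hy)
  have bd : ∀ y ∈ S, ∀ k, ∀ z ∈ S, b (A k (A 1 y * y⁻¹)) z = b (A (k + 1) y) z - b (A k y) z :=
    fun y hy k z hz => by
      rw [Am, Ai, AA, E.mul (mA _ y hy) (inv_mem (mA k y hy)) hz, E.inv (mA k y hy) hz, sub_eq_add_neg]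
  have eqn : ∀ y, h.1 * y.1 = (A 1 y * y⁻¹).1 * y.1 * h.1 := fun y => by
    rw [← Units.val_mul, ← Units.val_mul, ← Units.val_mul, hA]; congr 1; group
  obtain ⟨y, hy⟩ : ∃ y, y = A 1 x * x⁻¹ := ⟨_, rfl⟩
  obtain ⟨u, hu⟩ : ∃ u, u = A 1 y * y⁻¹ := ⟨_, rfl⟩
  have my : y ∈ S := hy ▸ mul_mem m1 (inv_mem hx)
  have mu : u ∈ S := hu ▸ mul_mem (mA 1 y my) (inv_mem my)
  have sy := hy ▸ a3 1
  have su := hu ▸ st y sy
  have b1 : A 1 u * u⁻¹ = 1 := one_of a1 (st u su) (E.scalar (mul_mem (mA 1 u mu) (inv_mem mu)) fun z hz => by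
    rw [← A0 (_ * _), bd u mu 0 z hz, hu, bd y my _ z hz, bd y my _ z hz, hy, bd x hx _ z hz, bd x hx _ z hz,
      bd x hx _ z hz, A0]
    linear_combination cub x hx z hz)
  have b2 : b u x = 0 := by
    rw [← A0 u, hu, bd y my _ x hx, hy, bd x hx _ x hx, bd x hx _ x hx, A0, E.self hx, q2 x hx]; ring
  have b3 : b x y ≠ 0 := by
    rwa [E.symm my hx, ← A0 y, hy, bd x hx _ x hx, A0, E.self hx, sub_zero, neg_ne_zero]
  exact hc.not_ge (E.quad r3 (inj x) b3 (E.pow_r my a1 sy) (E.pow_r mu a1 su) (hy ▸ eqn x) (hu ▸ eqn y)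
    (E.comm x hx y my) (by simpa [b2] using E.comm u mu x hx)
    (by simpa [E.stab mu my a1 su sy] using E.comm u mu y my) (by simpa [b1] using (eqn u).symm))

end Es

/-- The bounds for an arbitrary eigenvalue. -/
theorem Es.eig {S : Subgroup (End F V)ˣ} {b : (End F V)ˣ → (End F V)ˣ → ZMod r} (E : Es S χ b) {f : End F V}
    (hf : Nm S f) (hn : ∀ c : F, f ≠ c • 1) {p : ℕ} (hp : p.Prime) (h1 : f ^ p = 1) (c : F) :
    r * (2 * kd f (X - C c)) ≤ (r + 1) * finrank F V ∧ r ∣ finrank F V ∧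
      (p ≠ 2 → (r = 3 → p ≠ 3) → 2 * kd f (X - C c) ≤ finrank F V) := by
  have hd : r ∣ finrank F V := by obtain ⟨g, -, rfl⟩ := hf; exact E.dvd hn
  rcases eq_or_ne (kerA f (X - C c)) ⊥ with h5 | h5
  · have : kd f (X - C c) = 0 := (congrArg (fun U : Submodule F V => finrank F U) h5).trans (finrank_bot _ _)
    simp [this, hd]
  obtain ⟨v, a1, a2⟩ := (Submodule.ne_bot_iff _).1 h5
  have a3 : c ^ p = 1 := smul_left_injective F a2 (by
    simpa [h1] using (pow_apply_of_eq (mem_kerA_X_sub_C.1 a1) p).symm)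
  have a4 : c ≠ 0 := by rintro rfl; rw [zero_pow hp.ne_zero] at a3; exact zero_ne_one a3
  obtain ⟨h, hh, e⟩ := hf.smul _ _ (inv_ne_zero a4)
  have a5 : ∀ d : F, h.1 ≠ d • 1 := fun d hd => hn (c * d) (by
    rw [mul_smul, ← hd, e, smul_inv_smul₀ a4])
  rw [← kd_smul (inv_ne_zero a4), inv_mul_cancel₀ a4, ← e]
  exact ⟨E.gen hh a5, hd, fun h2 h3 => E.half hh a5 hp h2 h3 (Units.ext (by
    rw [Units.val_pow_eq_pow_val, e, _root_.smul_pow, h1, inv_pow, a3]; simp))⟩

theorem es_of {ι : Type} [Fintype ι] [DecidableEq ι] {R : Subgroup (GL ι F)}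
    (hZ : Nat.card (Subgroup.center R) = r) (hext : commutator R = Subgroup.center R)
    (hi : Geo.ActsAbsolutelyIrreducibly (Geo.matrixSet R)) :
    ∃ (χ : AddChar (ZMod r) F) (b : _), Es (tl (R ⊔ Geo.scalars ι F)) χ b := by
  have : Finite (Subgroup.center R) := Nat.finite_of_card_ne_zero (hZ ▸ hr.out.ne_zero)
  have cz : ∀ z ∈ Subgroup.center R, ∃ c : F, z.1.1 = c • (1 : Matrix ι ι F) ∧ z.1.1 ^ r = 1 := fun z hz => by
    obtain ⟨c, hc⟩ := hi.2 z.1.1 (by
      rintro _ ⟨x, hx, rfl⟩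
      exact congrArg (·.1.1) (Subgroup.mem_center_iff.1 hz ⟨x, hx⟩).symm)
    exact ⟨c, hc, congrArg (·.1.1.1) (hZ ▸ pow_card_eq_one' (x := (⟨z, hz⟩ : Subgroup.center R)))⟩
  have : Nontrivial (Subgroup.center R) := Finite.one_lt_card_iff_nontrivial.1 (hZ ▸ hr.out.one_lt)
  obtain ⟨z, hz⟩ := exists_ne (1 : Subgroup.center R)
  obtain ⟨c, c1, c2⟩ := cz z.1 z.2
  have c3 : c • (1 : Matrix ι ι F) ≠ 1 := fun h => hz (Subtype.ext (Subtype.ext (Units.ext (c1.trans h))))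
  have : Nontrivial (Matrix ι ι F) := ⟨_, _, c3⟩
  have : Nonempty ι := by by_contra! h; exact c3 (Subsingleton.elim _ _)
  have rt : ∀ t : F, (t • (1 : Matrix ι ι F)) ^ r = 1 → t ^ r = 1 := fun t h =>
    smul_left_injective F (one_ne_zero (α := Matrix ι ι F)) (by simpa [_root_.smul_pow] using h)
  have c4 := rt c (c1 ▸ c2)
  have c5 : orderOf c = r := orderOf_eq_prime c4 fun h => c3 (by simp [h])
  have c6 : c ≠ 0 := by rintro rfl; rw [zero_pow hr.out.ne_zero] at c4; exact zero_ne_one c4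
  have := Fintype.ofFinite F
  have c7 : r ∣ Nat.card F - 1 := c5 ▸ orderOf_dvd_of_pow_eq_one (by
    rw [Nat.card_eq_fintype_card]; exact FiniteField.pow_card_sub_one_eq_one c c6)
  have c8 : (Nat.card F : ZMod r) = 1 := by
    rw [← Nat.sub_add_cancel (Nat.card_pos (α := F)), Nat.cast_add, (ZMod.natCast_eq_zero_iff _ _).2 c7]; simp
  obtain ⟨χ, h1, h2⟩ := exists_chi (F := F) (orderOf_eq_one_iff.2 c8)
  have cm : ∀ x ∈ tl (R ⊔ Geo.scalars ι F), ∀ z ∈ tl (R ⊔ Geo.scalars ι F), ∃ a,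
      x.1 * z.1 = χ a • (z.1 * x.1) := by
    rintro _ ⟨_, hx, rfl⟩ _ ⟨_, hz, rfl⟩
    obtain ⟨x, hx', s, hs, rfl⟩ := Subgroup.mem_sup_of_normal_right.1 hx
    obtain ⟨z, hz', t, ht, rfl⟩ := Subgroup.mem_sup_of_normal_right.1 hz
    obtain ⟨s, hs⟩ := (Geo.mem_scalars_iff s).1 hs
    obtain ⟨t, ht⟩ := (Geo.mem_scalars_iff t).1 ht
    obtain ⟨d, d1, d2⟩ := cz (⟨x, hx'⟩ * ⟨z, hz'⟩ * (⟨x, hx'⟩ : R)⁻¹ * (⟨z, hz'⟩ : R)⁻¹) (by
      rw [← hext]; exact Subgroup.commutator_mem_commutator (Subgroup.mem_top _) (Subgroup.mem_top _))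
    obtain ⟨a, rfl⟩ := (h2 d).1 (rt d (d1 ▸ d2))
    have d3 : x.1 * z.1 = χ a • (z.1 * x.1) := by
      rw [← one_mul (z.1 * x.1), ← smul_mul_assoc, ← d1]
      simp [mul_assoc]
    refine ⟨a, ?_⟩
    change Matrix.toLin' _ * Matrix.toLin' _ = χ a • (Matrix.toLin' _ * Matrix.toLin' _)
    rw [End.mul_eq_comp, End.mul_eq_comp, ← Matrix.toLin'_mul, ← Matrix.toLin'_mul, ← map_smul]
    simp [hs, ht, d3, smul_smul, mul_comm, mul_left_comm, mul_assoc]
  choose! b hb using cm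
  refine ⟨χ, b, ⟨h1, h2, fun h => ?_, orderOf_eq_one_iff.2 c8⟩, inferInstance, fun m hm => ?_, hb⟩
  · obtain ⟨p, hp⟩ := CharP.exists F
    have := (CharP.charP_iff_prime_eq_zero hr.out).2 h
    obtain ⟨n, -, hn⟩ := FiniteField.card F r
    rw [Nat.card_eq_fintype_card, hn] at c8
    simp at c8
  · obtain ⟨M, rfl⟩ := Matrix.toLin'.surjective m
    obtain ⟨c, rfl⟩ := hi.2 M (by
      rintro _ ⟨x, hx, rfl⟩
      exact Matrix.toLin'.injective (by
        simp only [Matrix.toLin'_mul]; exact hm _ ⟨x, Subgroup.mem_sup_left hx, rfl⟩))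
    exact ⟨c, by simp; rfl⟩

end Cfsg.Agent.Elu
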