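import Cfsg.Agent.Elu.XsTool
import Cfsg.Agent.Elu.OrthUnip
import Cfsg.Agent.Geom.Family
import Mathlib.FieldTheory.Finite.Trace

/-! Extension field subgroups of orthogonal type of `Ω`: conjugacy in `Ω` (`cg_om`), trace forms
(`To`, `ty_iff`) and the elusivity criterion `ext_o`. -/

set_option autoImplicit false
set_option linter.unusedSectionVars false

namespace Cfsg.Agent.Elu

open QuadraticMap (polar)
open Module Polynomial Cfsg.Agent.Classical Cfsg.Agent.Geom Cfsg.Agent.Geom.Formed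

universe u

theorem tq_split {r q : ℕ} [hr : Fact r.Prime] (hq : 0 < q) (h4 : 4 ∣ orderOf (q : ZMod r)) (a : ℕ) :
    ∃ w, ¬ r ∣ w ∧ tq q (2 * a) = tq (q ^ 2) a * w := by
  induction a with
  | zero => exact ⟨1, hr.out.not_dvd_one, rfl⟩
  | succ a ih =>
    obtain ⟨w, h1, h2⟩ := ih
    refine ⟨w * (q ^ (2 * (2 * a + 1)) - 1), fun h => (hr.out.dvd_mul.1 h).elim h1 fun h => ?_, ?_⟩
    · have := h4.trans (orderOf_dvd_of_dvd hq h); omega
    · simp only [tq, mul_add_one 2 a, Finset.prod_range_succ] at h2 ⊢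
      rw [h2, ← pow_mul q 2 (2 * a + 2)]; ring

theorem mx_double {j d τ τ' : ℕ} (h : Even d → τ = τ') :
    mx (2 * (2 * j)) 1 (2 * d) τ = mx (2 * j) 1 d τ' := by
  simp only [mx, Nat.mul_mod_mul_left 2 d, Nat.mul_div_mul_left d _ two_pos, mul_eq_zero, two_ne_zero, false_or]
  by_cases h1 : d % (2 * j) = 0
  · rw [h (even_iff_two_dvd.2 ((dvd_mul_right 2 j).trans (Nat.dvd_of_mod_eq_zero h1)))]
  · simp [h1]

variable {F : Type*} [Field F] [Finite F] {V : Type u} [AddCommGroup V] [Module F V]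
  [FiniteDimensional F V] {Φ : Formed (RingHom.id F) V} {f g h : End F V} {S : End F V → Prop}
  {Q : QuadraticForm F V}

theorem isSquare_pow_mul {x y : F} (hx : x ≠ 0) (hy : y ≠ 0) (n : ℕ) :
    IsSquare (x ^ n * y) ↔ ((Even n ∨ IsSquare x) ↔ IsSquare y) := by
  rw [isSquare_mul_iff (pow_ne_zero _ hx) hy]
  obtain ⟨k, rfl | rfl⟩ := n.even_or_odd'
  · simp [show IsSquare (x ^ (2 * k)) from ⟨x ^ k, by ring⟩]
  · rw [pow_succ, mul_comm 2 k, pow_mul, isSquare_sq_mul_iff (pow_ne_zero _ hx)]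
    simp [parity_simps]

theorem Orth.iso_iff (hΦ : Orth Φ) (h2 : (2 : F) ≠ 0) : Iso Φ f ↔ ∀ x y, Φ.B (f x) (f y) = Φ.B x y :=
  ⟨And.left, fun h => ⟨h, fun x => mul_left_cancel₀ h2 (by rw [← hΦ.B_self, ← hΦ.B_self, h])⟩⟩

theorem eq_of_four (hn : Φ.Nondeg) (h2 : (2 : F) ≠ 0) (hf : Iso Φ f) (hg : Iso Φ g)
    (h3 : f ^ 2 = -1) (h4 : g ^ 2 = -1) : elemDiv f = elemDiv g := by
  by_cases hw : ∃ w : F, w ^ 2 = -1
  · obtain ⟨w, hw⟩ := hw
    have h0 : w ≠ 0 := by rintro rfl; simp at hw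
    have key : ∀ f : End F V, Iso Φ f → f ^ 2 = -1 → elemDiv f = Multiset.replicate (finrank F V / 2)
        (X - C w) + Multiset.replicate (finrank F V / 2) (X - C (-w)) := fun f a b => by
      have a1 := (sim_one.2 a).kd_le hn h0 (s := -w) (by simp [← sq, hw])
      have a4 := (sim_one.2 a).kd_le hn (neg_ne_zero.2 h0) (s := w) (by simp [← sq, hw])
      obtain ⟨a2, a3⟩ := elemDiv_of_two_factors (f := f) (c := w) (d := -w) (by grind) (by
        rw [show (X - C w) * (X - C (-w)) = X ^ 2 - C (w ^ 2) by simp; ring, aeval_X_pow_sub_C]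
        simp [hw, b])
      rw [a3]; congr 2 <;> omega
    rw [key f hf h3, key g hg h4]
  · exact eq_of_sq hw (by simp [h3]) (by simp [h4])

theorem Orth.cg_four (hΦ : Orth Φ) (hn : Φ.Nondeg) (h2 : (2 : F) ≠ 0) (hf : Iso Φ f) (hg : Iso Φ g)
    (h3 : f ^ 2 = -1) (h4 : g ^ 2 = -1) : ∃ k, Iso Φ k ∧ k * g = f * k := by
  obtain ⟨e, he⟩ := exists_equiv_iff.2 (eq_of_four hn h2 hg hf h4 h3)
  obtain ⟨x, rfl⟩ := hg.exists_isom hn
  obtain ⟨y, rfl⟩ := hf.exists_isom hn
  obtain ⟨k, h5, h6⟩ := exists_intertwine_isom hn hn rfl x.2.1 y.2.1 e he (Or.inr fun v hv => by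
    have h5 : x.1 (x.1 v) = -v := congrArg (· v) h4
    exact (smul_eq_zero.1 (show (2 : F) • v = 0 by
      rw [two_smul, ← eq_neg_iff_add_eq_zero, ← h5, hv])).resolve_left h2)
  exact ⟨k.toLinearMap, (hΦ.iso_iff h2).2 h6, LinearMap.ext h5⟩

theorem cg_inv (hn : Φ.Nondeg) (h2 : (2 : F) ≠ 0) (hf : Iso Φ f) (hg : Iso Φ g) (h3 : f ^ 2 = 1)
    (h4 : g ^ 2 = 1) {e : kerA g (X - C (-1)) ≃ₗ[F] kerA f (X - C (-1))}
    (he : (Φ.restrict _).IsIso (Φ.restrict _) e) : ∃ k, Iso Φ k ∧ k * g = f * k := by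
  obtain ⟨k, h5, h6⟩ := hn.witt e he.1 he.2
  refine ⟨k.toLinearMap, h5, LinearMap.ext fun v => ?_⟩
  obtain ⟨y, x, rfl⟩ := exists_add_of_isCompl (isCompl_kerA (isCoprime_two h2) (aeval_two h4)) v
  have a1 : k y ∈ kerA f (X - C 1) := by
    rw [← hn.perp_perp (kerA f _), hf.perp_fix hn (isCoprime_two h2) (aeval_two h3)]
    intro u hu
    obtain ⟨u, rfl⟩ : ∃ u' : kerA g (X - C (-1)), k u' = u := ⟨e.symm ⟨u, hu⟩, by simp [h6]⟩
    rw [h5.1]
    exact (hn.perp_perp (kerA g _)).ge y.2 _ ((hg.perp_fix hn (isCoprime_two h2) (aeval_two h4)).ge u.2)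
  simp [mem_fixA.1 y.2, mem_fixA.1 a1, mem_kerA_X_sub_C.1 x.2, h6, mem_kerA_X_sub_C.1 (e x).2]

theorem mul_reflL (hh : Iso (ofQuad Q) h) (v : V) : h * reflL Q v = reflL Q (h v) * h :=
  LinearMap.ext fun x => by
    have h1 : Q (h v) = Q v := hh.2 v
    have h2 : polar Q (h v) (h x) = polar Q v x := hh.1 v x
    simp [reflL_apply, h1, h2]

theorem cg_om (hn : (ofQuad Q).Nondeg) (h2 : (2 : F) ≠ 0) {P : V → Prop} {h' : End F V} (h1 : S h)
    (h3 : S h') (h4 : ∀ v, P v → Q v ≠ 0 → reflL Q v * h' = h * reflL Q v ∧ reflL Q v * h = h' * reflL Q v)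
    (h5 : ∀ t, ∃ v, P v ∧ Q v = t) (he : ∃ k, Iso (ofQuad Q) k ∧ k * h = f * k) : Cg (Om Q) S f := by
  obtain ⟨k, hk, he⟩ := he
  obtain ⟨k, rfl⟩ := hk.exists_isom hn
  have hx := notExc_of_two_ne_zero (Q := Q) h2
  obtain ⟨c, hc⟩ := exists_sqSign_eq_spin hn k
  obtain ⟨v, a1, a2⟩ := h5 c
  have a3 : Q v ≠ 0 := a2 ▸ c.ne_zero
  rcases Int.units_eq_one_or (dick k) with h6 | h6
  · obtain ⟨w, b1, b2⟩ := h5 1
    have b3 : Q w ≠ 0 := b2 ▸ one_ne_zero
    refine ⟨_, h, om_coe.2 ((mem_commutator_iff hn hx (k * (refl Q w * refl Q v))).2 ⟨?_, ?_⟩), h1, ?_⟩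
    · simp [dick_mul hn hx, dick_refl hn a3, dick_refl hn b3, h6]
    · simp [spin_mul hn hx, spin_refl hn a3, spin_refl hn b3, a2, b2, hc]
    · change (k.1 : End F V) * (reflL Q w * reflL Q v) * h = f * ((k.1 : End F V) * (reflL Q w * reflL Q v))
      rw [mul_assoc, mul_assoc, (h4 v a1 a3).2, ← mul_assoc (reflL Q w), (h4 w b1 b3).1, mul_assoc h,
        ← mul_assoc, he, mul_assoc]
  · refine ⟨_, h', om_coe.2 ((mem_commutator_iff hn hx (k * refl Q v)).2 ⟨?_, ?_⟩), h3, ?_⟩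
    · simp [dick_mul hn hx, dick_refl hn a3, h6]
    · simp [spin_mul hn hx, spin_refl hn a3, a2, hc]
    · change (k.1 : End F V) * reflL Q v * h' = f * ((k.1 : End F V) * reflL Q v)
      rw [mul_assoc, (h4 v a1 a3).1, ← mul_assoc, he, mul_assoc]

theorem Cg.mono {G G' : End F V → Prop} (hG : ∀ k, G k → G' k) (H : Cg G S f) : Cg G' S f :=
  H.imp fun k h => h.imp fun _ h => ⟨hG k h.1, h.2⟩

variable {K : Type*} [Field K] [Finite K] [Algebra F K]

/-- The Frobenius `α` of a quadratic extension, with an element `θ` of trace zero. -/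
structure Qe (α : K ≃ₐ[F] K) (θ : K) : Prop where
  two : (2 : F) ≠ 0
  rk : finrank F K = 2
  fr : ∀ x, α x = x ^ Nat.card F
  inv : ∀ x, α (α x) = x
  ne : θ ≠ 0
  th : α θ = -θ
  tr : ∀ x, algebraMap F K (Algebra.trace F K x) = x + α x

theorem exists_qe (h2 : (2 : F) ≠ 0) (hk : finrank F K = 2) : ∃ (α : K ≃ₐ[F] K) (θ : K), Qe α θ := by
  have := Fintype.ofFinite K
  have hK : Fintype.card K = Nat.card F ^ 2 := by rw [← Nat.card_eq_fintype_card, card_ext (F := F), hk]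
  obtain ⟨x, hx⟩ : ∃ x, frobq hK x ≠ x := by by_contra! h; exact frobq_ne_id hK (RingHom.ext h)
  refine ⟨AlgEquiv.ofBijective ⟨frobq hK, fun c => by
      change _ ^ _ = _; rw [← map_pow, Asch.pow_natCard]⟩ (Function.Involutive.bijective (frobq_frobq hK)),
    x - frobq hK x, h2, hk, fun _ => rfl, frobq_frobq hK, sub_ne_zero.2 hx.symm, ?_, fun x => ?_⟩
  · change frobq hK _ = _
    rw [map_sub, frobq_frobq, neg_sub]
  · rw [FiniteField.algebraMap_trace_eq_sum_pow, hk]; simp [Finset.sum_range_succ]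

namespace Qe

variable {α : K ≃ₐ[F] K} {θ : K} (E : Qe α θ)
include E

theorem two' : (2 : K) ≠ 0 := cast_ne_ext (r := 2) E.two

theorem half : ∃ m, Nat.card F = 2 * m + 1 ∧ ∀ x : K, x ≠ 0 →
    (IsSquare x ↔ (x * α x) ^ m = 1) ∧ (¬ IsSquare x → (x * α x) ^ m = -1) := by
  have := Fintype.ofFinite K
  obtain ⟨m, hm⟩ : ∃ m, Nat.card F = 2 * m + 1 := ⟨Nat.card F / 2, by have := card_mod_four E.two; omega⟩
  refine ⟨m, hm, fun x hx => ?_⟩
  have h1 : (x * α x) ^ m = x ^ (Fintype.card K / 2) := by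
    rw [E.fr, ← pow_succ', ← pow_mul, ← Nat.card_eq_fintype_card, card_ext (F := F) (K := K), E.rk, hm]
    congr 1; ring_nf; omega
  have h2 := FiniteField.isSquare_iff (ringChar_ne_two E.two') hx
  rw [h1]
  exact ⟨h2, fun h => (FiniteField.pow_dichotomy (ringChar_ne_two E.two') hx).resolve_left (h2.not.1 h)⟩

theorem sq_iff {a : F} {x : K} (hx : x ≠ 0) (h : algebraMap F K a = x * α x) : IsSquare a ↔ IsSquare x := by
  have := Fintype.ofFinite F
  obtain ⟨m, h1, h2⟩ := E.half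
  rw [(h2 x hx).1, ← h, ← map_pow, map_eq_one_iff _ (algebraMap F K).injective,
    FiniteField.isSquare_iff (ringChar_ne_two E.two) (by rintro rfl; simp [hx] at h),
    ← Nat.card_eq_fintype_card, show Nat.card F / 2 = m by omega]

theorem sq_map (a : F) : IsSquare (algebraMap F K a) := by
  rcases eq_or_ne a 0 with rfl | h
  · simp
  · exact (E.sq_iff (a := a * a) (by simpa using h) (by simp)).1 ⟨a, rfl⟩

theorem sq_th : IsSquare θ ↔ Nat.card F % 4 = 3 := by
  obtain ⟨m, h1, h2⟩ := E.half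
  have h3 : θ ^ (2 * m) = -1 := mul_right_cancel₀ E.ne (by rw [← pow_succ, ← h1, ← E.fr, E.th]; simp)
  rw [(h2 θ E.ne).1, E.th, mul_neg, neg_pow, ← sq, ← pow_mul, h3, ← pow_succ,
    neg_one_pow_eq_one_iff_even fun h => E.two' (by linear_combination -h), Nat.even_iff]
  omega

theorem tr_ext {x : K} (h : ∀ k, Algebra.trace F K (k * x) = 0) : x = 0 :=
  Root.Mx.eq_zero_of_dual (Algebra.trace_ne_zero F K) h

theorem plane {b : K} (hb : b ≠ 0) : ∃ l l' w : K, w ≠ 0 ∧ Algebra.trace F K (b * l * l') = 0 ∧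
    Algebra.trace F K (b * l * l) ≠ 0 ∧ Algebra.trace F K (b * l' * l') ≠ 0 ∧
    algebraMap F K (-(Algebra.trace F K (b * l * l) * Algebra.trace F K (b * l' * l'))) =
      (w ^ 2 * (θ * b)) * α (w ^ 2 * (θ * b)) := by
  obtain ⟨l, hl⟩ : ∃ l, Algebra.trace F K (b * l * l) ≠ 0 := by
    by_contra! h
    refine hb (E.tr_ext fun k => (mul_eq_zero.1 ?_).resolve_left E.two)
    rw [two_mul, ← map_add, show k * b + k * b = b * (1 + k) * (1 + k) - b * 1 * 1 - b * k * k by ring,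
      map_sub, map_sub, h, h, h]; simp
  have h0 : l ≠ 0 := by rintro rfl; simp at hl
  have h1 : α b ≠ 0 := by simpa using hb
  have h2 : α l ≠ 0 := by simpa using h0
  obtain ⟨s, hs⟩ := E.sq_map (Algebra.trace F K (b * l * l))
  have h3 : s ≠ 0 := by rintro rfl; simp [hl] at hs
  have h4 : algebraMap F K (-(Algebra.trace F K (b * l * l) *
      Algebra.trace F K (b * (θ / (b * l)) * (θ / (b * l))))) =
      ((s / (b * l)) ^ 2 * (θ * b)) * α ((s / (b * l)) ^ 2 * (θ * b)) := by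
    rw [div_pow, sq s, ← hs]
    simp only [map_neg, map_mul, map_div₀, map_pow, E.tr, E.th, map_add, E.inv]
    field_simp
  refine ⟨l, θ / (b * l), s / (b * l), by simp [*], (algebraMap F K).injective ?_, hl, fun h => ?_, h4⟩
  · rw [E.tr, mul_div_cancel₀ _ (mul_ne_zero hb h0), E.th]; simp
  · simp [h, h3, hb, h0, E.ne] at h4

theorem ty_iff (hΦ : Orth Φ) {ι : Type*} [Fintype ι] {u : ι → K → V} {b : ι → K} (hb : ∀ i, b i ≠ 0)
    (h0 : ∀ i j, i ≠ j → ∀ k l, Φ.B (u i k) (u j l) = 0)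
    (h1 : ∀ i k l, Φ.B (u i k) (u i l) = Algebra.trace F K (b i * k * l))
    (hV : finrank F V = 2 * Fintype.card ι) : Ty Φ 0 ↔ IsSquare (∏ i, θ * b i) := by
  choose l l' w a1 a2 a3 a4 a5 using fun i => E.plane (hb i)
  have b1 : ∀ i j : ι ⊕ ι, i ≠ j → Φ.B (Sum.elim (fun i => u i (l i)) (fun i => u i (l' i)) i)
      (Sum.elim (fun i => u i (l i)) (fun i => u i (l' i)) j) = 0 := by
    rintro (i | i) (j | j) h <;> rcases eq_or_ne i j with rfl | h' <;>
      simp [h0 _ _, h1, *, mul_right_comm _ (l' _) (l _)] at h ⊢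
  have b2 : ∀ i : ι ⊕ ι, Φ.B (Sum.elim (fun i => u i (l i)) (fun i => u i (l' i)) i)
      (Sum.elim (fun i => u i (l i)) (fun i => u i (l' i)) i) ≠ 0 := by
    rintro (i | i) <;> simp [h1, *]
  have b3 : Fintype.card (ι ⊕ ι) = finrank F V := by simp [hV, two_mul]
  have hn := nondeg_of_orth b1 b2 b3
  rw [ty_zero_iff hn, exists_congr fun U : Submodule F V =>
    and_congr_right' (show _ ↔ finrank F U = Fintype.card ι by omega),
    hn.plus_iff_of_orth E.two hΦ.1 hV b1 b2 b3, E.sq_iff (x := ∏ i, w i ^ 2 * (θ * b i))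
      (Finset.prod_ne_zero_iff.2 fun i _ => by simp [a1, hb, E.ne]), Finset.prod_mul_distrib,
    Finset.prod_pow, isSquare_sq_mul_iff (Finset.prod_ne_zero_iff.2 fun i _ => a1 i)]
  rw [map_prod, ← Finset.prod_mul_distrib, ← Finset.prod_congr rfl fun i _ => a5 i, ← map_prod,
    Finset.prod_neg, Finset.prod_mul_distrib]
  simp [h1]

end Qe

variable [Module K V] [IsScalarTower F K V] [FiniteDimensional K V] {Q' : QuadraticForm K V}
  {α : K ≃ₐ[F] K} {θ : K}

theorem tw_B' {Ψ : Formed (RingHom.id K) V} {ι : Type*} (b : Basis ι K V) {m : K}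
    (H : ∀ k v, h (k • v) = α k • h v) (h1 : ∀ i, h (b i) = b i)
    (h3 : ∀ i j, α (Ψ.B (b i) (b j)) = m * Ψ.B (b i) (b j)) (u v : V) :
    α (Ψ.B u v) = m * Ψ.B (h u) (h v) := by
  have h4 := b.mem_span u
  induction h4 using Submodule.span_induction with
  | mem _ hu =>
    obtain ⟨i, rfl⟩ := hu
    have h5 := b.mem_span v
    induction h5 using Submodule.span_induction with
    | mem _ hv => obtain ⟨j, rfl⟩ := hv; rw [h1, h1, h3]
    | zero => simp
    | add _ _ _ _ a c => simp [a, c, mul_add]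
    | smul _ _ _ a => simp [H, a, mul_left_comm m]
  | zero => simp
  | add _ _ _ _ a c => simp [a, c, mul_add]
  | smul _ _ _ a => simp [H, a, mul_left_comm m]

/-- `Q` is the trace form of `Q'`. -/
structure To (Q : QuadraticForm F V) (Q' : QuadraticForm K V) (α : K ≃ₐ[F] K) (θ : K) : Prop
    extends Qe α θ where
  n : (ofQuad Q).Nondeg
  n' : (ofQuad Q').Nondeg
  B : ∀ x y, (ofQuad Q).B x y = Algebra.trace F K ((ofQuad Q').B x y)

namespace To

variable (T : To Q Q' α θ)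
include T

theorem dim : finrank F V = 2 * finrank K V := by rw [← finrank_mul_finrank F K V, T.rk]

theorem iso {g : End K V} : Iso (ofQuad Q) (g.restrictScalars F) ↔ Iso (ofQuad Q') g := by
  rw [(orth_quad Q).iso_iff T.two, (orth_quad Q').iso_iff T.two']
  refine ⟨fun H u v => sub_eq_zero.1 (T.tr_ext fun k => ?_), fun H u v => by
    rw [T.B, T.B]; exact congrArg _ (H u v)⟩
  have := H u (k • v)
  simp only [T.B, LinearMap.restrictScalars_apply, map_smul, smul_eq_mul] at this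
  rw [mul_sub, map_sub, this, sub_self]

theorem P (x y : V) : polar Q x y = Algebra.trace F K (polar Q' x y) := T.B x y

theorem pl {e : V} (he : Q' e ≠ 0) : Nd (ofQuad Q) ((K ∙ e).restrictScalars F) ∧
    finrank F ((K ∙ e).restrictScalars F) = 2 := by
  refine ⟨nd_iff.2 fun u hu H => ?_, ?_⟩
  · obtain ⟨k, rfl⟩ := Submodule.mem_span_singleton.1 hu
    have := T.tr_ext (x := k * (2 * Q' e)) fun l => by
      simpa [T.P, polar_self', mul_left_comm k l] using H (l • e) (Submodule.mem_span_singleton.2 ⟨l, rfl⟩)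
    simp [he, T.two'] at this
    simp [this]
  · change finrank F (K ∙ e) = 2
    rw [← finrank_mul_finrank F K, T.rk, finrank_span_singleton (by rintro rfl; simp at he)]

theorem refl_refl {e v w : V} (he : Q' e ≠ 0) (hv : v ∈ K ∙ e) (hw : w ∈ K ∙ e) (h1 : Q v ≠ 0)
    (h3 : Q w ≠ 0) (h4 : polar Q v w = 0) : reflL Q v * reflL Q w = (reflL Q' e).restrictScalars F := by
  obtain ⟨a1, a2⟩ := T.pl he
  have a3 : polar Q w v = 0 := by rwa [QuadraticMap.polar_comm]
  have a4 : LinearIndependent F ![v, w] := linearIndependent_of_orthogonal (Φ := ofQuad Q)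
    (fun i j h => by fin_cases i <;> fin_cases j <;> simp [h4, a3] at h ⊢)
    fun i => by fin_cases i <;> simp [polar_self', h1, h3, T.two]
  have a5 : Submodule.span F (Set.range ![v, w]) = (K ∙ e).restrictScalars F :=
    Submodule.eq_of_le_of_finrank_eq (by simp [Submodule.span_le, Set.insert_subset_iff, hv, hw])
      (by rw [finrank_span_eq_card a4, a2]; rfl)
  ext x
  obtain ⟨y, z, rfl⟩ := exists_add_of_isCompl (T.n.isCompl_perp a1) x
  have b1 : polar Q' e z = 0 := T.tr_ext fun k => by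
    simpa [T.P] using z.2 (k • e) (Submodule.mem_span_singleton.2 ⟨k, rfl⟩)
  have b2 : polar Q v z = 0 := z.2 v hv
  have b3 : polar Q w z = 0 := z.2 w hw
  have b4 : reflL Q' e y = -y := by
    obtain ⟨k, hk⟩ := Submodule.mem_span_singleton.1 y.2
    rw [← hk, map_smul, show reflL Q' e e = -e from refl_self he, smul_neg]
  obtain ⟨c, hc⟩ := (Submodule.mem_span_range_iff_exists_fun F).1 (a5.ge y.2)
  have b5 : reflL Q v v = -v := refl_self h1
  have b6 : reflL Q w w = -w := refl_self h3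
  have b7 : reflL Q v w = w := refl_of_perp h4
  have b8 : reflL Q w v = v := refl_of_perp a3
  simp only [End.mul_apply, map_add, LinearMap.restrictScalars_apply, b4]
  simp [← hc, b5, b6, b7, b8, show reflL Q v z = z from refl_of_perp b2, add_comm,
    show reflL Q w z = z from refl_of_perp b3, show reflL Q' e z = z from refl_of_perp b1]

theorem ty_eq (hd : Even (finrank K V)) {τ τ' : ℕ} (h1 : Ty (ofQuad Q) τ) (h3 : Ty (ofQuad Q') τ') :
    τ = τ' := by
  obtain ⟨v, a1, a2⟩ := T.n'.exists_orth_family T.two' rfl rfl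
  obtain ⟨m, hm⟩ := hd.two_dvd
  have b0 : ∏ i, (ofQuad Q').B (v i) (v i) ≠ 0 := Finset.prod_ne_zero_iff.2 fun i _ => a2 i
  have b1 := T.ty_iff (orth_quad Q) (u := fun i k => k • v i) a2 (fun i j h k l => by
    simp only [T.B, map_smul, LinearMap.smul_apply, map_smulₛₗ, a1 i j h]; simp) (fun i k l => by
    simp only [T.B, map_smul, LinearMap.smul_apply, map_smulₛₗ, smul_eq_mul, RingHom.id_apply]
    congr 1; ring) (by simp [T.dim])
  have b2 := T.n'.plus_iff_of_orth T.two' rfl hm a1 a2 (by simp)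
  rw [Finset.prod_mul_distrib, Finset.prod_const, isSquare_pow_mul T.ne b0] at b1
  rw [isSquare_pow_mul (by simp) b0, ← exists_congr fun U : Submodule K V => and_congr_right'
    (show 2 * finrank K U = finrank K V ↔ _ by omega), ← ty_zero_iff T.n'] at b2
  have b3 : IsSquare (-1 : K) := by simpa using T.sq_map (-1)
  simp only [Finset.card_univ, Fintype.card_fin, hd, b3, true_or, or_true, true_iff] at b1 b2
  have := h1.le (orth_quad Q) T.n
  have := h3.le (orth_quad Q') T.n'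
  by_cases h : τ = 0
  · exact h.trans ((b2.2 (b1.1 (h ▸ h1))).unique h3)
  · by_cases h' : τ' = 0
    · exact absurd (h1.unique (b1.2 (b2.1 (h' ▸ h3)))) h
    · omega

theorem invs (hf : Om Q f) (h1 : f ^ 2 = 1) (h3 : f ≠ 1) (h4 : f ≠ -1) : Cg (Om Q) (Sm K) f := by
  obtain ⟨a, a1, a2⟩ := (om_neg T.n T.two hf.iso h1).1 hf
  have a3 := (inv_kd T.two h1).1
  have a4 := kd_lt (y := f) (c := 1) (by simpa using h3)
  have a5 := kd_lt (y := f) (c := -1) (by simpa using h4)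
  have a6 := T.dim
  change kd f _ = _ at a1
  obtain ⟨n, hn⟩ := FiniteField.exists_nonsquare (ringChar_ne_two T.two')
  have n0 : n ≠ 0 := by rintro rfl; simp at hn
  obtain ⟨c, c0, hc⟩ : ∃ c : K, c ≠ 0 ∧ (IsSquare ((θ * c) ^ a * 1) ↔ Nat.card F % 4 / 2 * a % 2 = 0) := by
    by_cases h : Nat.card F % 4 / 2 * a % 2 = 0
    · exact ⟨θ, T.ne, by simp [h, IsSquare.pow]⟩
    refine ⟨θ * n, mul_ne_zero T.ne n0, ?_⟩
    rw [isSquare_pow_mul (by simp [T.ne, n0]) one_ne_zero, ← mul_assoc, ← sq, isSquare_sq_mul_iff T.ne]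
    simp only [hn, h, IsSquare.one, or_false, iff_true, iff_false]
    exact fun h' => h (Nat.even_iff.1 (h'.mul_left _))
  obtain ⟨v, b1, b2⟩ := T.n'.exists_orthogonal_family (fun v => (ofQuad Q').B v v = c)
    (fun v hv => hv ▸ c0) 1 (fun U hU h => exists_B_self_eq _ T.two' rfl hU h c) a (by omega)
  have b3 : ∀ i, (ofQuad Q').B (v i) (v i) ≠ 0 := fun i => b2 i ▸ c0
  obtain ⟨g, b4, b5, b6⟩ := exists_neg T.n' T.two' (nondeg_span_of_orthogonal _ b1 b3)
  have b7 : ∀ i (k : K), k • v i ∈ kerA (g.restrictScalars F) (X - C (-1 : F)) := fun i k => by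
    have := mem_kerA_X_sub_C.1 (b6.ge (Submodule.smul_mem _ k (Submodule.subset_span ⟨i, rfl⟩)))
    exact mem_kerA_X_sub_C.2 (this.trans (by simp))
  have b8 : kd (g.restrictScalars F) (X - C (-1 : F)) = 2 * a := by
    rw [kd_res', map_neg, map_one, T.rk]
    exact congrArg _ ((congrArg (fun U : Submodule K V => finrank K U) b6).trans
      ((finrank_span_eq_card (linearIndependent_of_orthogonal _ b1 b3)).trans (by simp)))
  have b9 := T.ty_iff ((orth_quad Q).res _) (u := fun i k => ⟨_, b7 i k⟩) (b := fun _ => c) (fun _ => c0)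
    (fun i j h k l => by
      refine (T.B (k • v i) (l • v j)).trans ?_
      simp only [map_smul, LinearMap.smul_apply, map_smulₛₗ, b1 i j h]; simp)
    (fun i k l => by
      refine (T.B (k • v i) (l • v i)).trans ?_
      simp only [map_smul, LinearMap.smul_apply, map_smulₛₗ, smul_eq_mul, RingHom.id_apply, b2]
      congr 1; ring) (b8.trans (by simp))
  have c1 := T.iso.2 b4
  have c2 := res_pow_one (F := F).2 b5
  have c3 := (c1.nd_fix T.n (isCoprime_two T.two) (aeval_two c2)).2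
  obtain ⟨τ, c4, c5⟩ := ((orth_quad Q).res _).exists_ty c3 ⟨a, b8.trans (two_mul a)⟩
  rw [Finset.prod_const, Finset.card_univ, Fintype.card_fin, ← mul_one (_ ^ a), hc] at b9
  obtain rfl : τ = Nat.card F % 4 / 2 * a % 2 := by
    by_cases h : τ = 0
    · exact h.trans (b9.1 (h ▸ c5)).symm
    · have : ¬ _ := fun h' => h (c5.unique (b9.2 h')); omega
  obtain ⟨e, he⟩ := ((orth_quad Q).res _).iso_of_ty ((orth_quad Q).res _) c3
    (hf.iso.nd_fix T.n (isCoprime_two T.two) (aeval_two h1)).2 (b8.trans a1.symm) c5 a2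
  have c6 := sm_res (F := F) (b4.injective T.n')
  have a7 : 0 < a := by omega
  obtain ⟨d1, d2⟩ := T.pl (e := v ⟨0, a7⟩) fun h => b3 _ (by
    rw [(orth_quad Q').B_self]; exact mul_eq_zero_of_right _ h)
  refine cg_om T.n T.two c6 c6 (fun w hw _ => ?_) (exists_Q_eq Q _ d1 d2.ge)
    (cg_inv T.n T.two hf.iso c1 h1 c2 he)
  obtain ⟨k, rfl⟩ := Submodule.mem_span_singleton.1 hw
  rw [and_self, mul_reflL c1, mem_kerA_X_sub_C.1 (b7 _ k)]
  congr 1; ext; simp [reflL_apply]

theorem fours (hV : 0 < finrank K V) (hf : Iso (ofQuad Q) f) (h1 : f ^ 2 = -1) : Cg (Om Q) (Sm K) f := by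
  obtain ⟨d, hd⟩ := Nat.exists_eq_succ_of_ne_zero hV.ne'
  obtain ⟨n, hn⟩ := FiniteField.exists_nonsquare (ringChar_ne_two T.two')
  have n0 : n ≠ 0 := by rintro rfl; simp at hn
  obtain ⟨v, a1, a2, a3⟩ := T.n'.exists_orth_const T.two' rfl hd n0
  have a4 : ∀ i, (ofQuad Q').B (v i) (v i) ≠ 0 := Fin.lastCases a3 fun i => a2 i ▸ n0
  have b1 := T.ty_iff (orth_quad Q) (u := fun i k => k • v i) a4 (fun i j h k l => by
    simp only [T.B, map_smul, LinearMap.smul_apply, map_smulₛₗ, a1 i j h]; simp) (fun i k l => by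
    simp only [T.B, map_smul, LinearMap.smul_apply, map_smulₛₗ, smul_eq_mul, RingHom.id_apply]
    congr 1; ring) (by simp [T.dim, hd])
  have b2 := four_ty (orth_quad Q) T.n T.two hf h1 (hd ▸ T.dim)
  have b3 : ¬ IsSquare ((ofQuad Q').B (v (Fin.last d)) (v (Fin.last d))) := fun h => by
    rw [Fin.prod_univ_castSucc, Finset.prod_congr rfl fun i _ => by rw [a2 i], Finset.prod_const,
      isSquare_pow_mul (mul_ne_zero T.ne n0) (mul_ne_zero T.ne a3), isSquare_mul_iff T.ne n0,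
      isSquare_mul_iff T.ne a3, T.sq_th] at b1
    simp only [Finset.card_univ, Fintype.card_fin, h, hn, iff_true, iff_false, Nat.even_iff] at b1
    have b3 : Ty (ofQuad Q) 0 ↔ Nat.card F % 4 / 2 * d.succ % 2 = 0 := ⟨fun h => b2.unique h, fun h => h ▸ b2⟩
    rw [b3] at b1
    rcases card_mod_four T.two with h | h <;> simp [h] at b1 <;> omega
  choose t t0 ht using fun i => exists_sq_mul_of_sqSign_eq (a4 i) n0 (sqSign_congr (iff_of_false
    (Fin.lastCases b3 (fun i => a2 i ▸ hn) i) hn))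
  have b4 : ∀ i j, (ofQuad Q').B ((t i)⁻¹ • v i) ((t j)⁻¹ • v j) = if i = j then n else 0 := fun i j => by
    simp only [map_smul, LinearMap.smul_apply, map_smulₛₗ, smul_eq_mul, RingHom.id_apply]
    split_ifs with h
    · subst h; rw [ht]; field_simp [t0 i]
    · simp only [a1 i j h, mul_zero]
  let b := basisOfOrth (Φ := ofQuad Q') (v := fun i => (t i)⁻¹ • v i) (fun i j h => by rw [b4, if_neg h])
    (fun i => by rwa [b4, if_pos rfl]) (by simp [hd])
  have b5 : ∀ i j, (ofQuad Q').B (b i) (b j) = if i = j then n else 0 := by simpa only [b, coe_basisOfOrth] using b4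
  obtain ⟨φ, c1, c2, c3, c4⟩ := exists_tw b α
  obtain ⟨m, c5, c6⟩ := T.half
  have c7 : ∀ v, φ (φ v) = v := fun v => congrArg (· v) ((sq φ).symm.trans (c4 2 (AlgEquiv.ext T.inv)))
  have c8 := tw_B' b (m := n ^ m * n ^ m) c2 c3 fun i j => by
    rw [b5]; split_ifs
    · rw [T.fr, c5]; ring
    · simp
  have d1 : Iso (ofQuad Q) (n ^ m • φ) := ((orth_quad Q).iso_iff T.two).2 fun u v => by
    rw [T.B, T.B, ← Algebra.trace_eq_of_algEquiv α ((ofQuad Q').B u v), c8]
    simp only [map_smul, LinearMap.smul_apply, map_smulₛₗ, smul_eq_mul, RingHom.id_apply, mul_assoc]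
  have d2 : ∀ v, (n ^ m • φ) ((n ^ m • φ) v) = -v := fun v => by
    simp only [LinearMap.smul_apply, c2, c7, smul_smul, map_pow, ← mul_pow, (c6 n n0).2 hn, neg_one_smul]
  have d3 : Sm K (n ^ m • φ) := ⟨d1.injective T.n, fun k => ⟨α k, fun v => by simp [c2, smul_comm (α k)]⟩⟩
  have d4 : Q' (b 0) ≠ 0 := fun h => n0 (by simpa [polar_self', h] using (b5 0 0).symm)
  obtain ⟨d5, d6⟩ := T.pl d4
  have d7 : ∀ w ∈ K ∙ b 0, (n ^ m • φ) w ∈ K ∙ b 0 := fun w hw => by
    obtain ⟨k, rfl⟩ := Submodule.mem_span_singleton.1 hw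
    exact Submodule.mem_span_singleton.2 ⟨n ^ m * α k, by simp [c2, c3, mul_smul]⟩
  generalize n ^ m • φ = h at d1 d2 d3 d7
  refine cg_om T.n T.two (h' := (reflL Q' (b 0)).restrictScalars F * h) d3
    ⟨(refl Q' (b 0)).1.injective.comp d3.1, fun k => (d3.2 k).imp fun k' e v => by simp [e]⟩
    (fun w hw h0 => ?_) (exists_Q_eq Q _ d5 d6.ge)
    ((orth_quad Q).cg_four T.n T.two hf d1 h1 (LinearMap.ext d2))
  have e1 : polar Q w (h w) = 0 := (mul_eq_zero.1 (show 2 * polar Q w (h w) = 0 by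
    have : polar Q (h w) (h (h w)) = polar Q w (h w) := d1.1 _ _
    rw [d2, QuadraticMap.polar_neg_right, QuadraticMap.polar_comm] at this
    linear_combination -this)).resolve_left T.two
  have e2 : Q (h w) = Q w := d1.2 w
  have e3 : ∀ w, reflL Q w * reflL Q w = 1 := fun w => LinearMap.ext (reflL_reflL Q w)
  constructor
  · rw [← T.refl_refl d4 hw (d7 w hw) h0 (e2 ▸ h0) e1, mul_reflL d1, ← mul_assoc, ← mul_assoc, e3, one_mul]
  · rw [← T.refl_refl d4 hw (d7 w hw) h0 (e2 ▸ h0) e1, mul_assoc, mul_assoc, mul_reflL d1,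
      ← mul_assoc (reflL Q (h w)), e3, one_mul]

theorem not_odd (hV : 3 ≤ finrank F V) {r : ℕ} [hr : Fact r.Prime] (h3 : 2 < r)
    (hΩ : r * Nat.card (ofQuad Q').isom ∣ Nat.card (ofQuad Q).isom) :
    ∃ y, Iso (ofQuad Q) y ∧ y ^ r = 1 ∧ y ≠ 1 ∧ ∀ g : End K V, Iso (ofQuad Q') g →
      elemDiv (g.restrictScalars F) ≠ elemDiv y := by
  have a0 := T.dim
  by_cases h : (r : F) = 0
  · have := (CharP.charP_iff_prime_eq_zero hr.out).2 h
    obtain ⟨y, a1, a2⟩ := Orth.real_unip T.two _ (orth_quad Q) T.n rfl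
      (μ := 3 ::ₘ Multiset.replicate (finrank F V - 3) 1) (by simp; omega)
      (by simp +contextual [Multiset.mem_replicate])
      (fun a ha => by
        rw [Multiset.count_eq_zero.2]; exact Even.zero
        simp only [Multiset.mem_cons, Multiset.mem_replicate]
        rintro (rfl | ⟨-, rfl⟩) <;> exact absurd ha (by decide)) (Or.inl ⟨3, by simp, by decide⟩)
    refine ⟨y, a1, a2.pow_char (by simp +contextual [Multiset.mem_replicate]; omega),
      a2.ne_one (a := 3) (by simp) (by omega), fun g _ hg => ?_⟩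
    have a3 := kd_of_eq hg ((X - C 1) ^ 2)
    have a4 := a2.kd 2
    rw [kd_res, T.rk, kd.eq_1 y, aeval_X_sub_one_pow, a4] at a3
    simp at a3
    omega
  have h' : (r : K) ≠ 0 := cast_ne_ext h
  obtain ⟨τ, -, ht⟩ := (orth_quad Q).exists_ty T.n ⟨_, a0.trans (two_mul _)⟩
  obtain ⟨u, v, a, -, b1, b2, b3⟩ := (orth_quad Q).card_eff T.n (Or.inr ht) h h3
  have hK : orderOf (Nat.card K : ZMod r) = orderOf (Nat.card F : ZMod r) /
      Nat.gcd (orderOf (Nat.card F : ZMod r)) 2 := by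
    rw [card_ext (F := F) (K := K), T.rk, Nat.cast_pow, orderOf_pow' _ two_ne_zero]
  have h0 := ord_pos h
  by_cases h4 : 4 ∣ orderOf (Nat.card F : ZMod r)
  · obtain ⟨τ', ht'⟩ := (orth_quad Q').exists_tp T.n'
    obtain ⟨u', v', a', c0, -, c2, c3⟩ := (orth_quad Q').card_eff T.n' ht' h' h3
    obtain ⟨w, c4, c5⟩ := tq_split Nat.card_pos h4 a'
    have c6 := lt_of_dvd_tq (a := 2 * a') (b := a) (u := v') (v := v * (u' * w)) Finite.one_lt_card h0
      (fun h => (hr.out.dvd_mul.1 h).elim b1 fun h => (hr.out.dvd_mul.1 h).elim c0 c4) (by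
        rw [c5, ← T.rk, ← card_ext, mul_assoc, ← mul_assoc v', ← c2, mul_right_comm v, ← b2, mul_assoc,
          ← mul_assoc, mul_right_comm _ u]
        exact (Nat.mul_dvd_mul_right hΩ _).mul_right _)
    obtain ⟨j, hj⟩ := h4
    rw [hj, show 4 * j = 2 * (2 * j) by ring] at hK b3 c6
    rw [Nat.gcd_eq_right (dvd_mul_right _ _), Nat.mul_div_cancel_left _ two_pos] at hK
    rw [hK, cdim_even (even_two_mul _), eta_even (even_two_mul _)] at c3
    rw [cdim_even (even_two_mul _)] at c6 b3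
    rw [eta_even (even_two_mul _), a0, mx_double (τ' := τ') fun hd =>
      T.ty_eq hd ht (ht'.resolve_left (Nat.not_odd_iff_even.2 hd))] at b3
    rw [Nat.mul_div_mul_left _ _ two_pos] at c6
    omega
  have c1 := lt_of_dvd_tq (a := 0) (b := a) (u := 1) Finite.one_lt_card h0 b1 (by
    rw [← b2]; simpa [tq] using ((dvd_mul_right _ _).trans hΩ).mul_right _)
  obtain ⟨y, c2, c3, c4⟩ := exists_of_chain h h3 (typ_id h h3) T.n (Orth.chain h h3 rfl 1 (orth_quad Q) T.n
    (Or.inr ht) ((fit_iff (cdim_pos h0) (by omega)).2 (by rw [← b3]; exact c1.trans_le' (Nat.zero_le _))))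
  have c5 := finrank_fix (pol_cyc h h3).cop (aeval_split c3)
  have c6 := cdim_pos h0
  refine ⟨y, c2, c3, ?_, fun g c7 c8 => ?_⟩
  · rintro rfl
    have : finrank F (kerA (1 : End F V) (X - C 1)) = _ := kd_eq_finrank_iff.2 (by simp)
    omega
  have c9 := c7.typ_dvd T.n' h' h3 (typ_id h' h3) (res_pow_one.1 (pow_of_eq' c8.symm c3))
  have d1 := (kd_of_eq c8 (cyclotomic r F)).trans c4
  rw [kd_res, map_cyclotomic, T.rk] at d1
  have d2 := Nat.le_of_dvd (by omega) c9
  rw [hK] at d2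
  rcases Nat.even_or_odd (orderOf (Nat.card F : ZMod r)) with d3 | d3
  · rw [Nat.gcd_eq_right d3.two_dvd, cdim_odd (Nat.odd_iff.2 (by have := d3.two_dvd; omega))] at d2
    rw [cdim_even d3] at d1
    omega
  · rw [(Nat.coprime_two_right.2 d3).gcd_eq_one, Nat.div_one] at d2
    omega

theorem ext_o (hV : 3 ≤ finrank F V) {r : ℕ} [hr : Fact r.Prime]
    (hΩ : r * Nat.card (ofQuad Q').isom ∣ Nat.card (ofQuad Q).isom) :
    (∀ f, Om Q f → PE r f → Cg (Om Q) (Sm K) f) ↔ r = 2 := by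
  have : Nontrivial V := (finrank_pos_iff (R := F)).1 (by omega)
  rcases hr.out.eq_two_or_odd' with rfl | ho
  · exact iff_of_true ((forall_two_id T.n T.two fun _ h => h.iso).2 ⟨fun f => T.invs, fun f h =>
      T.fours (by have := T.dim; omega) h.iso⟩) rfl
  have h3 : 2 < r := hr.out.two_le.lt_of_ne (by rintro rfl; exact absurd ho (by decide))
  rw [om_odd T.n (notExc_of_two_ne_zero T.two) (by omega) ho (Cg.smul Sm.smul)]
  refine iff_of_false (fun H => ?_) h3.ne'
  obtain ⟨y, a1, a2, a3, a4⟩ := T.not_odd hV h3 hΩ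
  obtain ⟨g, b1, b2, b3⟩ := ((H y a1 a2 a3).mono fun _ h => h.iso).exists T.n a1
  rcases b2.cases (T.rk ▸ Nat.prime_two) with ⟨g, rfl⟩ | b4
  · exact a4 g (T.iso.1 b1) b3
  · exact Nat.not_even_iff_odd.2 ho (even_iff_two_dvd.2 (T.rk ▸ b4.2 r 1 (by
      simpa using pow_of_eq' b3.symm a2)))

end To

theorem exists_to (hn : (ofQuad Q).Nondeg) (h2 : (2 : F) ≠ 0) (hk : finrank F K = 2)
    (h : ∀ (k : K) u v, polar Q (k • u) v = polar Q u (k • v)) :
    ∃ (Q' : QuadraticForm K V) (α : K ≃ₐ[F] K) (θ : K), To Q Q' α θ := by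
  obtain ⟨α, θ, E⟩ := exists_qe h2 hk
  obtain ⟨B, h3, h4⟩ := Root.Mx.exists_trace_form hn (Algebra.trace_ne_zero F K) h
  have h5 : ∀ x y, (ofQuad ((2⁻¹ : K) • B.toQuadraticMap)).B x y = B x y := fun x y => by
    have : B y x = B x y := sub_eq_zero.1 (E.tr_ext fun k => by
      have a1 := h3 y (k • x)
      have a2 := h3 (k • x) y
      simp only [map_smul, smul_eq_mul, LinearMap.smul_apply, ofQuad_B_apply] at a1 a2
      rw [mul_sub, map_sub, ← a1, ← a2, QuadraticMap.polar_comm, sub_self])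
    simp [QuadraticMap.polar_smul, LinearMap.BilinMap.polar_toQuadraticMap, this, ← two_mul, E.two']
  exact ⟨_, α, θ, E, hn, fun x hx => h4 x fun y => (h5 x y).symm.trans (hx y), fun x y => h5 x y ▸ h3 x y⟩

theorem ext_o_mat {F : Type*} [Field F] [Finite F] {ι : Type} [Fintype ι] [DecidableEq ι]
    {Q : QuadraticForm F (ι → F)} (hn : (ofQuad Q).Nondeg) (h2 : (2 : F) ≠ 0) (hV : 3 ≤ Fintype.card ι)
    {S : Subalgebra F (Matrix ι ι F)} (hS : Geo.IsFieldSubalgebra 2 S)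
    (hf : Geo.IsSelfAdjointFor (polar Q) S) {r : ℕ} [Fact r.Prime]
    (hΩ : r ∣ (Geo.subalgebraNormalizer S).relIndex (Geo.omegaGL Q)) :
    (∀ x ∈ Geo.omegaGL Q, (∃ c : F, (x ^ r).1 = c • 1) → (∀ c : F, x.1 ≠ c • 1) →
      ∃ g ∈ Geo.omegaGL Q, g⁻¹ * x * g ∈ Geo.subalgebraNormalizer S) ↔ r = 2 := by
  have : Nonempty ι := Fintype.card_pos_iff.1 (by omega)
  refine with_ext hS fun K _ _ _ _ _ _ h1 _ h3 h4 => ?_
  obtain ⟨Q', α, θ, T⟩ := exists_to (K := K) hn h2 h1 fun k u v => by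
    obtain ⟨a, ha, e⟩ := h3 k
    simpa only [e] using hf a ha u v
  have h5 : InG (Geo.omegaGL Q) = Om Q := funext fun f => by
    obtain ⟨A, rfl⟩ := Matrix.toLin'.surjective f
    simp only [om_toLin', InG, Matrix.toLin'.injective.eq_iff]
  rw [grp_iff, h4, h5, T.ext_o (by simpa using hV)]
  have h6 : ∀ g ∈ (ofQuad Q').isom, g.restrictScalars F ∈ (ofQuad Q).isom := fun g hg => T.iso.2 hg
  rw [Geo.omegaGL, ← Subgroup.relIndex_comap] at hΩ
  rw [← Nat.card_congr (isometryEquiv Q).toEquiv]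
  refine dvd_of_relIndex hΩ ((isometryEquiv Q).symm.toMonoidHom.comp (resHom _ _ h6))
    ((isometryEquiv Q).symm.injective.comp (resHom_injective _ _ h6)) fun k =>
      Subgroup.mem_comap.2 (inG_toLin'.1 ?_)
  rw [h4]
  convert sm_res (F := F) k.1.injective using 1
  exact LinearMap.ext (isometryEquiv_symm_mulVec Q _)

end Cfsg.Agent.Elu
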