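import Cfsg.Agent.Elu.XsTool
import Cfsg.Agent.GLChar.JT

/-! The Steinberg character of `GL n` at semisimple elements: it is the Moebius function of the lattice of invariant
subspaces (`jd_eq`, `fix_eq`, `sum_mb`). -/

set_option autoImplicit false
set_option linter.unusedSectionVars false

namespace Cfsg.Agent.Elu

open Module Polynomial Finset Equiv Cfsg.Agent.Classical
open scoped _root_.Classical

section
variable {L : Type*} [Fintype L] [PartialOrder L] [OrderTop L] (d : L → ℕ)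

/-- The number of chains from `U` to `⊤` with steps `a`. -/
noncomputable def ch : ∀ k, (Fin k → ℕ) → L → ℂ
  | 0, _, U => if U = ⊤ then 1 else 0
  | k + 1, a, U => ∑ W, if U ≤ W ∧ d W = d U + a 0 then ch k (fun i => a i.succ) W else 0

theorem ch_eq : ∀ k (a : Fin k → ℕ) (U : L), ch d k a U = Nat.card {c : Fin (k + 1) → L // c 0 = U ∧
    c (Fin.last k) = ⊤ ∧ ∀ i : Fin k, c i.castSucc ≤ c i.succ ∧ d (c i.succ) = d (c i.castSucc) + a i}
  | 0, a, U => by
    rw [ch]
    split_ifs with h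
    · rw [Nat.card_eq_one_iff_exists.2 ⟨⟨fun _ => U, by simp [h]⟩, fun c => Subtype.ext (_root_.funext fun i => by
        rw [Subsingleton.elim (α := Fin 1) i 0, c.2.1])⟩, Nat.cast_one]
    · rw [(Nat.card_eq_zero).2 (.inl ⟨fun c => h (c.2.1.symm.trans c.2.2.1)⟩), Nat.cast_zero]
  | k + 1, a, U => by
    have e : {c : Fin (k + 2) → L // c 0 = U ∧ c (Fin.last _) = ⊤ ∧ ∀ i : Fin (k + 1), c i.castSucc ≤ c i.succ ∧
        d (c i.succ) = d (c i.castSucc) + a i} ≃ Σ W : {W // U ≤ W ∧ d W = d U + a 0}, {c : Fin (k + 1) → L //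
          c 0 = W ∧ c (Fin.last k) = ⊤ ∧ ∀ i : Fin k, c i.castSucc ≤ c i.succ ∧
            d (c i.succ) = d (c i.castSucc) + a i.succ} :=
      { toFun c := ⟨⟨c.1 (Fin.succ 0), by simpa [c.2.1] using c.2.2.2 0⟩, Fin.tail c.1, rfl, c.2.2.1, fun i => c.2.2.2 i.succ⟩
        invFun c := ⟨Fin.cons U c.2.1, rfl, c.2.2.2.1, Fin.cases (by simpa [c.2.2.1] using c.1.2) c.2.2.2.2⟩
        left_inv c := Subtype.ext (by simp [← c.2.1])
        right_inv := fun ⟨⟨W, h⟩, c, hc⟩ => by
          refine Sigma.subtype_ext (Subtype.ext ?_) ?_ <;> simp [hc.1] }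
    rw [Nat.card_congr e, Nat.card_sigma, ch, ← sum_filter, Nat.cast_sum, sum_subtype (p := fun W => U ≤ W ∧
      d W = d U + a 0) (F := inferInstance) _ (by simp)]
    simp only [ch_eq k]

/-- The Jacobi-Trudi sum of chain numbers. -/
noncomputable def jd (n s : ℕ) (U : L) : ℂ := ∑ κ : Perm (Fin n), if ∀ i, (κ i).val ≤ 1 + i.val then
  ((Perm.sign κ : ℤ) : ℂ) * ch d n (fun i => 1 + i.val - (κ i).val + if (κ i).val = 0 then s else 0) U else 0

theorem jd_zero (n s : ℕ) (U : L) : ∑ e : Perm (Fin n), (if ∀ i, (Perm.decomposeFin.symm (0, e) i).val ≤ 1 + i.val then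
    ((Perm.sign (Perm.decomposeFin.symm (0, e)) : ℤ) : ℂ) * ch d (n + 1) (fun i => 1 + i.val -
      (Perm.decomposeFin.symm (0, e) i).val + if (Perm.decomposeFin.symm (0, e) i).val = 0 then s else 0) U else 0) =
    ∑ W, if U ≤ W ∧ d W = d U + (1 + s) then jd d n 0 W else 0 := by
  have h : ∀ (p : Prop) [Decidable p] (f : Perm (Fin n) → ℂ), (if p then ∑ e, f e else 0) =
      ∑ e, if p then f e else 0 := fun p _ f => by split_ifs <;> simp
  simp only [jd, h, ch]
  rw [sum_comm]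
  refine sum_congr rfl fun e _ => ?_
  simp only [Fin.forall_fin_succ, Perm.decomposeFin_symm_apply_zero, Perm.decomposeFin_symm_apply_succ, swap_self,
    refl_apply, Fin.val_succ, Perm.decomposeFin.symm_sign, ← add_assoc, Nat.add_le_add_iff_right, Nat.add_sub_add_right]
  by_cases h : ∀ i, (e i).val ≤ 1 + i.val <;> simp [h, mul_sum]

variable {d} (hd : StrictMono d)
include hd

theorem jd_succ (n s : ℕ) (U : L) : jd d (n + 2) s U =
    (∑ W, if U ≤ W ∧ d W = d U + (1 + s) then jd d (n + 1) 0 W else 0) - jd d (n + 1) (s + 1) U := by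
  rw [jd, ← Perm.decomposeFin.symm.sum_comp, Fintype.sum_prod_type, Fin.sum_univ_succ, jd_zero, Fin.sum_univ_succ,
    sum_eq_zero (s := univ (α := Fin n)) fun p _ => sum_eq_zero fun e _ => if_neg fun h => by simpa using h 0,
    add_zero, sub_eq_add_neg, jd, ← sum_neg_distrib]
  congr 1
  refine sum_congr rfl fun e _ => ?_
  have h1 : ∀ i, (Perm.decomposeFin.symm (Fin.succ 0, e) (Fin.succ i)).val = if (e i).val = 0 then 0 else (e i).val + 1 :=
    fun i => by
      rw [Perm.decomposeFin_symm_apply_succ]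
      split_ifs with h
      · simp [show e i = 0 from Fin.ext h]
      · rw [swap_apply_of_ne_of_ne (Fin.succ_ne_zero _) fun h' => h (by simp [Fin.succ_inj.1 h'])]; rfl
  have h2 : ∀ W, U ≤ W ∧ d W = d U ↔ W = U := fun W =>
    ⟨fun h => (h.1.eq_or_lt.resolve_right fun h' => (hd h').ne' h.2).symm, by rintro rfl; simp⟩
  rw [apply_ite Neg.neg, neg_zero]
  refine if_congr ?_ ?_ rfl
  · rw [Fin.forall_fin_succ]
    simp only [h1, Fin.val_succ]
    exact (and_iff_right (by simp)).trans (forall_congr' fun i => by split_ifs <;> omega)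
  · rw [ch]
    simp only [h1]
    simp [Perm.decomposeFin.symm_sign, h2]
    congr 2
    ext i
    split_ifs with h <;> simp [*] <;> omega

theorem jd_eq {m : L → ℂ} (hm : ∀ U, ∑ W with U ≤ W, m W = if U = ⊤ then 1 else 0) (n : ℕ) (U : L) :
    jd d n 0 U = if d U + n = d ⊤ then (-1) ^ n * m U else 0 := by
  have h0 : ∀ W, d W = d ⊤ ↔ W = ⊤ := fun W =>
    ⟨fun h => le_top.eq_or_lt.resolve_right fun h' => (hd h').ne h, by rintro rfl; rfl⟩
  have h1 : m ⊤ = 1 := by simpa [sum_filter] using hm ⊤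
  have h2 : ∀ n U, d U + (n + 1) = d ⊤ → ∑ W with U ≤ W ∧ d ⊤ ≤ d W + n, m W = -m U := fun n U h => by
    have := hm U
    rw [if_neg (by rintro rfl; omega), ← add_sum_erase _ _ (a := U) (by simp)] at this
    rw [← eq_neg_of_add_eq_zero_right this]
    refine sum_congr (Finset.ext fun W => ?_) fun _ _ => rfl
    simp only [mem_filter, mem_univ, true_and, mem_erase]
    exact ⟨fun ⟨a, b⟩ => ⟨by rintro rfl; omega, a⟩, fun ⟨a, b⟩ => ⟨b, by have := hd (b.lt_of_ne' a); omega⟩⟩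
  have key : ∀ n s U, jd d (n + 1) s U = if d U + (n + 1 + s) = d ⊤ then
      (-1) ^ n * ∑ W with U ≤ W ∧ d ⊤ ≤ d W + n, m W else 0 := fun n => by
    induction n with
    | zero =>
      intro s U
      have : ∀ W, (U ≤ W ∧ d ⊤ ≤ d W) ↔ W = ⊤ := fun W =>
        ⟨fun h => (h0 W).1 (h.2.antisymm' (hd.monotone le_top)), by rintro rfl; simp⟩
      simp [jd, ch, this, sum_filter, h1, eq_comm (a := d ⊤), ← ite_and, and_comm (b := _ = (⊤ : L)), ite_and]
      rw [sum_eq_single ⊤ (by simp +contextual) (by simp)]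
      simp [eq_comm]
    | succ n ih =>
      intro s U
      rw [jd_succ hd, ih, add_assoc (n + 1) 1, add_comm 1 s]
      simp only [ih, ← ite_and]
      split_ifs with h
      · simp only [sum_filter, mul_sum, ← sum_sub_distrib]
        refine sum_congr rfl fun W _ => ?_
        by_cases a : U ≤ W
        · by_cases b : d W + (n + 1) = d ⊤
          · rw [if_pos ⟨⟨a, by omega⟩, b⟩, ← mul_sum, ← sum_filter, h2 n W b, if_neg (by omega), if_pos ⟨a, b.ge⟩]; ring
          · rw [if_neg (by omega), if_congr (and_congr_right (b := d ⊤ ≤ d W + (n + 1)) (c := d ⊤ ≤ d W + n)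
              fun _ => by omega) rfl rfl]; ring
        · simp [a]
      · rw [sum_eq_zero fun W _ => if_neg (by omega), sub_zero]
  rcases n with _ | n
  · simp only [jd, ch, add_zero, h0]
    split_ifs <;> simp [*]
  · rw [key]
    split_ifs with h
    · rw [h2 n U h]; ring
    · rfl

end

variable {F : Type*} [Field F] [Fintype F] {V : Type*} [AddCommGroup V] [Module F V] [Finite V] {f : End F V}

/-- The invariant subspaces. -/
abbrev IL (f : End F V) := {U : Submodule F V // Inv f U}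

instance instOrderTopIL : OrderTop (IL f) := Subtype.orderTop (Inv.top f)

noncomputable instance instFintypeIL : Fintype (IL f) := Fintype.ofFinite _

theorem strictMono_IL : StrictMono fun U : IL f => finrank F U.1 := fun _ _ h => Submodule.finrank_lt_finrank_of_lt h

theorem fix_eq {n : ℕ} {μ : Fin n → ℕ} (h : ∑ i, μ i = n) (x : GL (Fin n) F) :
    fixedPointCharacter (parabolicGL n F μ) x =
      ch (fun U : IL (Matrix.toLin' x.1) => finrank F U.1) n μ ⟨⊥, Inv.bot _⟩ := by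
  open GLChar Pointwise in
  rw [ch_eq, fixedPointCharacter, Nat.cast_inj]
  let E : Fin (n + 1) → Submodule F (Fin n → F) := fun k => coordP F fun i => k.val ≤ compLabel μ i
  have hE : ∀ k, finrank F (E k) = ps μ k := fun k => by
    simp only [E, finrank_coordP, Fintype.card_subtype, not_le, card_lab_lt h]
  have a1 : ∀ (g : GL (Fin n) F) (U : Submodule F (Fin n → F)), finrank F ↥(g • U) = finrank F U := fun g U =>
    (Submodule.equivMapOfInjective _ (MulAction.injective g) U).finrank_eq.symm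
  have a2 : ∀ (g : GL (Fin n) F) (U W : Submodule F (Fin n → F)), finrank F U = finrank F W →
      (g • U = W ↔ ∀ v ∈ U, g.1.mulVec v ∈ W) := fun g U W e =>
    ⟨by rintro rfl v hv; exact Submodule.smul_mem_pointwise_smul v g U hv, fun H =>
      Submodule.eq_of_le_of_finrank_eq (by rintro _ ⟨v, hv, rfl⟩; exact H v hv) ((a1 g U).trans e)⟩
  have a3 : parabolicGL n F μ = MulAction.stabilizer _ E := Subgroup.ext fun g => by
    simp only [MulAction.mem_stabilizer_iff, funext_iff, Pi.smul_apply, a2 g _ _ rfl, E, mulVec_mem_coordP_iff]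
    exact ⟨fun H k i j a b => H (by omega), fun H i j a => H ⟨compLabel μ i, (lb h i).2.trans (by simp)⟩ i j le_rfl a.not_ge⟩
  have a4 : ps μ 0 = 0 := by simp [ps]
  have a5 : ps μ n = n := by simp [ps, h]
  have a6 : Monotone E := fun k l e v hv i hi => hv i (le_trans e hi)
  rw [a3]
  refine Nat.card_congr (Equiv.ofBijective (fun c => ⟨fun k => ⟨MulAction.ofQuotientStabilizer _ E c.1 k, ?_⟩, ?_⟩)
    ⟨fun c c' e => Subtype.ext (MulAction.injective_ofQuotientStabilizer _ E (_root_.funext fun k =>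
      congrArg (·.1 k |>.1) e)), fun ⟨W, b1, b2, b3⟩ => ?_⟩)
  · exact (a2 x _ _ rfl).1 (congrFun ((MulAction.ofQuotientStabilizer_smul _ E x c.1).symm.trans
      (congrArg _ c.2)) k)
  · obtain ⟨c, hc⟩ := c
    induction c using QuotientGroup.induction_on with | H g => ?_
    refine ⟨Subtype.ext (Submodule.finrank_eq_zero.1 ((a1 g _).trans ((hE 0).trans a4))),
      Subtype.ext (Submodule.eq_top_of_finrank_eq ((a1 g _).trans ((hE _).trans (by simpa)))), fun i =>
      ⟨Submodule.map_mono (a6 i.castSucc_le_succ), ((a1 g _).trans ((hE _).trans (ps_succ μ i))).trans ?_⟩⟩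
    exact congrArg (· + μ i) ((a1 g _).trans (hE i.castSucc)).symm
  have b4 : ∀ k, finrank F (W k).1 = ps μ k := Fin.induction (by simp [b1, a4]) fun i ih => by
    rw [(b3 i).2, ih]; exact (ps_succ μ i).symm
  have b5 : Monotone W := Fin.monotone_iff_le_succ.2 fun i => (b3 i).1
  obtain ⟨⟨s, c1, c2⟩⟩ := (Nat.card_ne_zero.1 ((card_li n (fun j => (W (lb h j).succ).1) fun j k e =>
    b5 (Fin.succ_le_succ_iff.2 (lab_mono μ e))).trans_ne (prod_ne_zero_iff.2 fun j _ => (Nat.sub_pos_of_lt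
      (Nat.pow_lt_pow_right Fintype.one_lt_card (by
        rw [b4]; exact (lab_lt h j _).1 (Nat.lt_succ_self _)))).ne'))).1
  obtain ⟨g, rfl⟩ := (Matrix.equiv_GL_linearindependent n).surjective ⟨s, c1⟩ |>.imp fun g e => congrArg Subtype.val e
  have c3 : ∀ k, g • E k = (W k).1 := fun k => (a2 g _ _ ((hE k).trans (b4 k).symm)).2 fun v hv => by
    rw [Matrix.mulVec_eq_sum]
    refine Submodule.sum_mem _ fun j _ => ?_
    by_cases e : k.val ≤ compLabel μ j
    · simp [hv j e]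
    · rw [op_smul_eq_smul]
      exact Submodule.smul_mem _ (v j) (b5 (show (lb h j).succ ≤ k from not_le.1 e) (c2 j))
  exact ⟨⟨g, MulAction.injective_ofQuotientStabilizer _ E ((MulAction.ofQuotientStabilizer_smul _ E x g).trans
    (_root_.funext fun k => (congrArg (x • ·) (c3 k)).trans (((a2 x _ _ rfl).2 (W k).2).trans (c3 k).symm)))⟩,
    Subtype.ext (_root_.funext fun k => Subtype.ext (c3 k))⟩

theorem exists_irr_not_mem {c : Submodule F V} (hc : Inv f c) (b : F[X]) : Squarefree b → ∀ w ∉ c,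
    aeval f b w = 0 → ∃ g, Irreducible g ∧ g.Monic ∧ g ∣ b ∧ ∃ v ∉ c, aeval f g v = 0 := by
  induction b using WfDvdMonoid.induction_on_irreducible with
  | zero => exact fun h => (h.ne_zero rfl).elim
  | unit u hu =>
    intro _ w hw h
    obtain ⟨a, ha⟩ := exists_aeval_eq (a := 0) (isCoprime_zero_left.2 hu) h
    exact (hw (ha ▸ by simp)).elim
  | mul b g _ hg ih =>
    intro hb w hw h
    by_cases e : aeval f b w ∈ c
    · obtain ⟨u, u', hu⟩ := (IsRelPrime.of_squarefree_mul hb).isCoprime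
      obtain ⟨g', a1, a2, a3, a4⟩ := ih hb.of_mul_right (aeval f g w) (fun e' => hw (by
        have := add_mem (hc.aeval u _ e') (hc.aeval u' _ e)
        rwa [← aeval_mul_apply, ← aeval_mul_apply, ← LinearMap.add_apply, ← map_add, hu, map_one] at this))
        (by rw [aeval_comm_apply, ← aeval_mul_apply, h])
      exact ⟨g', a1, a2, a3.mul_left _, a4⟩
    · refine ⟨normalize g, (associated_normalize g).irreducible hg, monic_normalize hg.ne_zero,
        (normalize_associated g).dvd.mul_right _, _, e, ?_⟩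
      rw [normalize_apply, mul_comm, aeval_mul_apply, ← aeval_mul_apply g, h, map_zero]

/-- The Moebius function of the lattice of invariant subspaces. -/
noncomputable def mb (T : Finset F[X]) (U : IL f) : ℂ := ∏ g ∈ T,
  (-1) ^ ((kd f g - finrank F ↥(kerA f g ⊓ U.1)) / g.natDegree) *
    (Fintype.card F : ℂ) ^ (g.natDegree * ((kd f g - finrank F ↥(kerA f g ⊓ U.1)) / g.natDegree).choose 2)

theorem sum_mb {b : F[X]} (hb : Squarefree b) (h0 : aeval f b = 0) {T : Finset F[X]}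
    (hT : ∀ g, g ∈ T ↔ Irreducible g ∧ g.Monic ∧ kd f g ≠ 0) (U : IL f) :
    ∑ W with U ≤ W, mb T W = if U = ⊤ then 1 else 0 := by
  have := Fintype.ofFinite V
  split_ifs with hU
  · subst hU
    rw [sum_filter, sum_eq_single ⊤ (by simp +contextual) (by simp), if_pos le_rfl]
    exact prod_eq_one fun g _ => by rw [show (⊤ : IL f).1 = ⊤ from rfl, inf_top_eq]; simp [kd]
  obtain ⟨c, a1, a2⟩ := (eq_top_or_exists_le_coatom U).resolve_left hU
  obtain ⟨w, hw⟩ : ∃ w, w ∉ c.1 := by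
    by_contra! h; exact a1.1 (Subtype.ext (eq_top_iff.2 fun w _ => h w))
  obtain ⟨g, g1, g2, ⟨b', rfl⟩, v0, g3, g4⟩ := exists_irr_not_mem c.2 b hb w hw (by simp [h0])
  have b1 : ∀ v ∉ c.1, aeval f g v = 0 → cyc f v ⊓ c.1 = ⊥ ∧ cyc f v ⊔ c.1 = ⊤ ∧ cyc f v ≤ kerA f g ∧
      finrank F (cyc f v) = g.natDegree := fun v a b =>
    ⟨(cyc_irr g1 b ((inv_cyc f v).inf c.2) inf_le_left).resolve_right fun e => a (e.ge (self_mem_cyc f v)).2,
      congrArg Subtype.val (a1.2 ⟨_, (inv_cyc f v).sup c.2⟩ (show c.1 < _ from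
        right_lt_sup.2 fun e => a (e (self_mem_cyc f v)))),
      (inv_ker_aeval f g).cyc_le b, finrank_cyc g1 g2 b fun e => a (e ▸ zero_mem _)⟩
  have b2 : ∀ a, IsCoprime g a → kerA f a ≤ c.1 := fun a ha w hw => by
    obtain ⟨u, hu⟩ := exists_aeval_eq ha (mem_kerA.1 hw)
    obtain ⟨y, hy, z, hz, e⟩ := Submodule.mem_sup.1 ((b1 v0 g3 g4).2.1.ge (Submodule.mem_top (x := aeval f u w)))
    rw [← hu, ← e, map_add, mem_kerA.1 ((b1 v0 g3 g4).2.2.1 hy), zero_add]
    exact c.2.aeval g z hz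
  have b3 : ∀ W : IL f, ∀ v ∈ W.1, v ∉ c.1 → aeval f g v = 0 → W.1 = cyc f v ⊔ W.1 ⊓ c.1 := fun W v a b e => by
    rw [inf_comm, ← sup_inf_assoc_of_le _ (W.2.cyc_le a), (b1 v b e).2.1, top_inf_eq]
  have b4 : ∀ W : IL f, ¬ W.1 ≤ c.1 → finrank F ↥(kerA f g ⊓ W.1) =
      finrank F ↥(kerA f g ⊓ (W.1 ⊓ c.1)) + g.natDegree := fun W hW => by
    obtain ⟨v, ⟨a, e⟩, b⟩ : ∃ v ∈ W.1 ⊓ kerA f g, v ∉ c.1 := SetLike.not_le_iff_exists.1 fun e => hW (by
      rw [eq_sup_of_coprime (IsRelPrime.of_squarefree_mul hb).isCoprime h0 W.2]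
      exact sup_le e (inf_le_of_right_le (b2 _ (IsRelPrime.of_squarefree_mul hb).isCoprime)))
    obtain ⟨c1, -, c2, c3⟩ := b1 v b e
    rw [congrArg (kerA f g ⊓ ·) (b3 W v a b e), inf_comm, sup_inf_assoc_of_le _ c2, finrank_sup_of_disjoint ((disjoint_iff.2 c1).mono_right
      (inf_le_of_left_le inf_le_right)), c3, add_comm, inf_comm]
  have b5 : ∀ W : IL f, g.natDegree ∣ finrank F ↥(kerA f g ⊓ W.1) := fun W => by
    obtain ⟨k, hk, -⟩ := elemDiv_of_irreducible g1 g2
      ((le_kerA_iff ((inv_ker_aeval f g).inf W.2)).1 inf_le_left)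
    exact ⟨k, by rw [← hk, mul_comm]⟩
  have b6 : ∀ W : Submodule F V, #{v | v ∈ kerA f g ⊓ W ∧ v ∉ c.1} + Fintype.card F ^
      finrank F ↥(kerA f g ⊓ (W ⊓ c.1)) = Fintype.card F ^ finrank F ↥(kerA f g ⊓ W) := fun W => by
    rw [← Module.card_eq_pow_finrank, ← Module.card_eq_pow_finrank, Fintype.card_subtype, Fintype.card_subtype,
      ← card_filter_add_card_filter_not (s := filter (· ∈ kerA f g ⊓ W) _) (· ∈ c.1), add_comm]
    simp only [filter_filter, Submodule.mem_inf, and_assoc]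
  have t1 := b4 ⊤ fun e => g3 (e trivial)
  have t2 := b6 ⊤
  have t3 := b5 ⊤
  rw [show (⊤ : IL f).1 = ⊤ from rfl] at t1 t3
  rw [inf_top_eq] at t1 t2 t3
  have gT : g ∈ T := (hT g).2 ⟨g1, g2, by have := g1.natDegree_pos; change finrank F (kerA f g) ≠ 0; omega⟩
  rw [← sum_fiberwise_of_maps_to (s := filter (U ≤ ·) univ) (t := filter (fun Y => U ≤ Y ∧ Y ≤ c) univ)
    (g := fun W => ⟨W.1 ⊓ c.1, W.2.inf c.2⟩) fun W hW =>
      mem_filter.2 ⟨mem_univ _, (le_inf (mem_filter.1 hW).2 a2 : U.1 ≤ W.1 ⊓ c.1), (inf_le_right : W.1 ⊓ c.1 ≤ _)⟩]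
  refine sum_eq_zero fun Y hY => ?_
  obtain ⟨y1, y2⟩ : U.1 ≤ Y.1 ∧ Y.1 ≤ c.1 := by simpa using hY
  let S : Finset (IL f) := {W | W.1 ⊓ c.1 = Y.1 ∧ ¬ W.1 ≤ c.1}
  obtain ⟨a, ha⟩ := t3
  obtain ⟨y, hy⟩ := b5 Y
  have hd := g1.natDegree_pos
  obtain ⟨e, rfl⟩ : ∃ e, a = y + 1 + e := Nat.exists_eq_add_of_le (Nat.le_of_mul_le_mul_left (by
    rw [mul_add, mul_one, ← hy, ← ha, t1, top_inf_eq, add_le_add_iff_right]
    exact Submodule.finrank_mono (inf_le_inf_left _ y2)) hd)
  have s1 : #S = Fintype.card F ^ (g.natDegree * e) := by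
    have := card_eq_sum_card_fiberwise (s := {v | v ∈ kerA f g ⊓ ⊤ ∧ v ∉ c.1}) (t := S)
      (f := fun v => ⟨cyc f v ⊔ Y.1, (inv_cyc f v).sup Y.2⟩) fun v hv => by
        obtain ⟨⟨a, -⟩, b⟩ := (mem_filter.1 hv).2
        refine mem_filter.2 ⟨mem_univ _, ?_, fun e => b (e (Submodule.mem_sup_left (self_mem_cyc f v)))⟩
        change (cyc f v ⊔ Y.1) ⊓ _ = _
        rw [sup_comm, sup_inf_assoc_of_le _ y2, (b1 v b a).1, sup_bot_eq]
    rw [sum_congr rfl (g := fun _ => Fintype.card F ^ (g.natDegree * y) * (Fintype.card F ^ g.natDegree - 1))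
      fun W hW => ?_, sum_const, smul_eq_mul, inf_top_eq] at this
    · rw [this, ha, show finrank F ↥(kerA f g ⊓ (⊤ ⊓ c.1)) = g.natDegree * (y + e) by linarith] at t2
      obtain ⟨k, hk⟩ := Nat.exists_eq_add_of_lt (Nat.one_lt_pow hd.ne' (Fintype.one_lt_card (α := F)))
      simp only [mul_add, pow_add, mul_one, hk] at t2
      refine Nat.eq_of_mul_eq_mul_right (m := Fintype.card F ^ (g.natDegree * y) * (k + 1)) (by positivity) ?_
      rw [show 1 + k + 1 - 1 = k + 1 by omega] at t2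
      linarith
    · obtain ⟨c1, c2⟩ := (mem_filter.1 hW).2
      have := b6 W.1
      rw [b4 W c2, c1, hy, pow_add] at this
      rw [Nat.mul_sub_one, ← this, Nat.add_sub_cancel, filter_filter]
      refine congrArg _ (filter_congr fun v _ => ⟨fun ⟨⟨a, b⟩, e⟩ => ⟨⟨a.1, e ▸ Submodule.mem_sup_left
        (self_mem_cyc f v)⟩, b⟩, fun ⟨a, b⟩ => ⟨⟨⟨a.1, trivial⟩, b⟩, Subtype.ext ?_⟩⟩)
      exact (congrArg (cyc f v ⊔ ·) c1.symm).trans (b3 W v a.2 b a.1).symm
  have s2 : ∀ W ∈ S, mb T Y = -(Fintype.card F : ℂ) ^ (g.natDegree * e) * mb T W := fun W hW => by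
    obtain ⟨c1, c2⟩ := (mem_filter.1 hW).2
    rw [mb, mb, ← mul_prod_erase _ _ gT, ← mul_prod_erase _ _ gT, ← mul_assoc, b4 W c2, c1, hy, show kd f g = _ from ha,
      ← Nat.mul_succ, ← Nat.mul_sub, ← Nat.mul_sub, Nat.mul_div_cancel_left _ hd, Nat.mul_div_cancel_left _ hd,
      show y + 1 + e - y = e + 1 by omega, Nat.add_sub_cancel_left, Nat.choose_succ_succ' e 1, Nat.choose_one_right]
    congr 1
    · ring
    refine prod_congr rfl fun g' hg' => ?_
    obtain ⟨d1, d2⟩ := mem_erase.1 hg'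
    rw [← c1, inf_comm W.1, ← inf_assoc, inf_eq_left.2 (b2 g' (isCoprime_of_ne g1 g2 ((hT _).1 d2).1
      ((hT _).1 d2).2.1 d1.symm))]
  rw [show filter _ _ = insert Y S from Finset.ext fun W => by
    simp only [mem_filter, mem_univ, true_and, mem_insert, S, Subtype.ext_iff]
    refine ⟨fun ⟨_, e⟩ => (em (W.1 ≤ c.1)).imp (fun h => by rwa [inf_eq_left.2 h] at e) fun h => ⟨e, h⟩, ?_⟩
    rintro (e | e)
    · exact ⟨y1.trans e.ge, by rw [e, inf_eq_left.2 y2]⟩
    · exact ⟨y1.trans (e.1.ge.trans inf_le_left), e.1⟩, sum_insert fun e => (mem_filter.1 e).2.2 y2]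
  have s3 : (Fintype.card F : ℂ) ^ (g.natDegree * e) ≠ 0 := pow_ne_zero _ (by simp)
  refine mul_left_cancel₀ s3 ?_
  rw [mul_add, mul_sum, sum_congr rfl (g := fun _ => -mb T Y) fun W hW => by rw [s2 W hW]; ring, sum_const, s1]
  simp

end Cfsg.Agent.Elu
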