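import Cfsg.Agent.Elu.ExtSp
import Cfsg.Agent.Root.Ten4

/-! Tensor product subgroups: `Tn Θ h` (`inG_tn`), kernel dimensions of tensor products
(`kd_lTensor`, `kd_map_le`, `Cj.ten`), and the elusivity criteria `ten_sl`, `ten_sp`. -/

set_option autoImplicit false

namespace Cfsg.Agent.Elu

open Module Polynomial Cfsg.Agent.Classical Cfsg.Agent.Geom Cfsg.Agent.Geom.Formed TensorProduct

universe u v w

variable {F : Type*} [Field F] [Finite F] {V : Type u} [AddCommGroup V] [Module F V]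
  [FiniteDimensional F V] {f y : End F V}

theorem irr_dvd_kd {g : F[X]} (hg : Irreducible g) (f : End F V) : g.natDegree ∣ kd f g := by
  classical
  rw [kd_eq]
  refine Multiset.dvd_sum fun x hx => ?_
  obtain ⟨a, -, rfl⟩ := Multiset.mem_map.1 hx
  rw [gdeg_comm, gdeg_irreducible hg]
  split_ifs <;> simp

theorem exists_irr {b : F[X]} {e : ℕ} (hp : Pol b e) (h0 : 0 < kd y b) : ∃ g, Irreducible g ∧
    g.Monic ∧ g ∣ b ∧ g.natDegree = e ∧ 0 < kd y g ∧ kd y g ≤ kd y b ∧
      kd y g = kd (inv_ker_aeval y b).res g := by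
  classical
  obtain ⟨g, hg⟩ := exists_mem_elemDiv (inv_ker_aeval y b).res h0
  obtain ⟨h1, h2, h3, h4⟩ := hp.mem (aeval_res_kerA b) hg
  have h5 : kd y g = kd (inv_ker_aeval y b).res g := by
    rw [kd, kd, ← Submodule.finrank_map_subtype_eq]
    refine congrArg (fun S : Submodule F V => finrank F S) (Submodule.ext fun v => ?_)
    obtain ⟨c, rfl⟩ := h3
    simp only [Submodule.mem_map, LinearMap.mem_ker, Subtype.ext_iff, aeval_restrict]
    exact ⟨fun h => ⟨⟨v, by rw [LinearMap.mem_ker, mul_comm, aeval_mul_apply, h, map_zero]⟩, h, rfl⟩,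
      by rintro ⟨y, hy, rfl⟩; exact hy⟩
  refine ⟨g, h1, h2, h3, h4, ?_, h5 ▸ kd_le _ _, h5⟩
  rw [h5, kd, kd_eq_count hp (aeval_res_kerA b) h1 h2]
  exact Nat.mul_pos (hp.pos (aeval_res_kerA b) h0) (Multiset.count_pos.2 hg)

/-- `S` generates the space under `f`. -/
def Gen (f : End F V) (S : Submodule F V) : Prop := ∀ Z, S ≤ Z → Inv f Z → Z = ⊤

omit [Finite F] in
theorem gen_one (h : ∀ c : F, f ≠ c • 1) : ∃ S, Gen f S ∧ finrank F S + 1 ≤ finrank F V := by
  obtain ⟨u, hu⟩ := Root.Mx.exists_notMem_of_not_scalar h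
  obtain ⟨φ, h1, h2⟩ := Root.Mx.exists_fun1 hu
  refine ⟨LinearMap.ker φ, fun Z h3 h4 => eq_top_iff.2 fun v _ => ?_,
    Submodule.finrank_lt fun h => by simpa [h1] using h.ge (Submodule.mem_top (x := f u))⟩
  have := Z.add_mem (h3 (show v - φ v • f u ∈ _ by simp [h1])) (Z.smul_mem (φ v) (h4 u (h3 h2)))
  simpa using this

theorem gen_cyc {r : ℕ} [hr : Fact r.Prime] (h : (r : F) ≠ 0) (h3 : 2 < r) (h1 : f ^ r = 1) (h2 : f ≠ 1) :
    ∃ S, Gen f S ∧ finrank F S + orderOf (Nat.card F : ZMod r) ≤ finrank F V + 1 := by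
  have hp := pol_cyc h h3
  obtain ⟨g, a1, a2, -, a3, a4, -⟩ := exists_irr (y := f) hp (by
    have := rk_eq hp.cop (aeval_split h1)
    have := Nat.pos_of_ne_zero (rk_eq_zero.not.2 h2)
    change 0 < finrank F (kerA f _); omega)
  obtain ⟨v, hv, h0⟩ := Submodule.exists_mem_ne_zero_of_ne_bot (Submodule.finrank_eq_zero.not.1 a4.ne')
  obtain ⟨W, b1, b2⟩ := exists_inv_compl (squarefree_X_pow_sub_one h) ((aeval_X_pow_sub_one f r).2 h1)
    (inv_cyc f v)
  refine ⟨W ⊔ F ∙ v, fun Z c1 c2 => eq_top_iff.2 (b1.sup_eq_top ▸ sup_le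
    (c2.cyc_le (c1 (Submodule.mem_sup_right (Submodule.mem_span_singleton_self v))))
    (le_sup_left.trans c1)), ?_⟩
  have := Submodule.finrank_add_le_finrank_add_finrank W (F ∙ v)
  have := Submodule.finrank_add_eq_of_isCompl b1
  have := finrank_cyc a1 a2 hv h0
  have := finrank_span_singleton (K := F) h0
  omega

variable {W : Type v} [AddCommGroup W] [Module F W] [FiniteDimensional F W]
  {U : Type w} [AddCommGroup U] [Module F U] [FiniteDimensional F U] {a : End F W} {b : End F U}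

omit [Finite F] [FiniteDimensional F W] [FiniteDimensional F U] in
theorem aeval_lTensor (b : End F U) (g : F[X]) :
    aeval (b.lTensor W : End F (W ⊗[F] U)) g = (aeval b g).lTensor W :=
  aeval_algHom_apply (Module.End.lTensorAlgHom F U W) b g

omit [Finite F] in
theorem kd_lTensor (b : End F U) (g : F[X]) :
    kd (b.lTensor W : End F (W ⊗[F] U)) g = finrank F W * kd b g := by
  rw [kd, aeval_lTensor, (Module.Flat.lTensor_exact W
    (LinearMap.exact_subtype_ker_map (aeval b g))).linearMap_ker_eq, LinearMap.finrank_range_of_inj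
    (Module.Flat.lTensor_preserves_injective_linearMap _ (Submodule.injective_subtype _)),
    finrank_tensorProduct, kd]

theorem elemDiv_map_comm (a : End F W) (b : End F U) :
    elemDiv (map a b : End F (W ⊗[F] U)) = elemDiv (map b a : End F (U ⊗[F] W)) :=
  elemDiv_congr (TensorProduct.comm F W U) fun v => by
    induction v with
    | zero => simp
    | tmul => simp
    | add _ _ h h' => simp [h, h']

omit [Finite F] in
theorem kd_map_le (hb : Function.Injective b) {S : Submodule F (Dual F W)} (hS : Gen a.dualMap S)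
    {c : F} : kd (map a b : End F (W ⊗[F] U)) (X - C c) ≤ finrank F S * finrank F U := by
  have : Module.Free F S := Module.Free.of_divisionRing F S
  rw [← finrank_linearMap F F S U]
  refine LinearMap.finrank_le_finrank_of_injective (f := ((Root.Mx.cL (U := U)).domRestrict S).flip ∘ₗ
    Submodule.subtype _) ((injective_iff_map_eq_zero _).2 fun x hx => Subtype.ext
      (Root.Mx.eq_of_cL fun φ => ?_))
  have h1 : ∀ (ψ : Dual F W) z, Root.Mx.cL ψ (map a b z) = b (Root.Mx.cL (a.dualMap ψ) z) := fun ψ z => by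
    induction z with
    | zero => simp
    | tmul => simp
    | add _ _ h h' => simp [h, h']
  have h2 := hS (LinearMap.ker ((Root.Mx.cL (U := U)).flip x.1)) (fun ψ hψ => congr($hx ⟨ψ, hψ⟩))
    fun ψ hψ => hb (by
      have := h1 ψ x.1
      rw [mem_kerA_X_sub_C.1 x.2, map_smul, show Root.Mx.cL ψ x.1 = 0 from hψ, smul_zero] at this
      rw [map_zero]; exact this.symm)
  simpa using h2.ge (Submodule.mem_top (x := φ))

omit [Finite F] [FiniteDimensional F W] in
theorem dual_ne (h : ∀ c : F, a ≠ c • 1) (c : F) : a.dualMap ≠ c • 1 := fun e => h c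
  (LinearMap.ext fun v => sub_eq_zero.1 ((forall_dual_apply_eq_zero_iff F _).1 fun φ => by
    simpa [sub_eq_zero] using congr($e φ v)))

omit [Finite F] in
theorem kd_map_one (ha : ∀ c : F, a ≠ c • 1) (hb : Function.Injective b) (c : F) :
    kd (map a b : End F (W ⊗[F] U)) (X - C c) + finrank F U ≤ finrank F W * finrank F U := by
  obtain ⟨S, h1, h2⟩ := gen_one (dual_ne ha)
  rw [Subspace.dual_finrank_eq] at h2
  have := kd_map_le (c := c) hb h1
  nlinarith [Nat.mul_le_mul_right (finrank F U) h2]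

theorem kd_map_cyc {r : ℕ} [hr : Fact r.Prime] (h : (r : F) ≠ 0) (h3 : 2 < r) (h1 : a ^ r = 1)
    (ha : ∀ c : F, a ≠ c • 1) (hb : Function.Injective b) :
    kd (map a b : End F (W ⊗[F] U)) (X - C 1) + orderOf (Nat.card F : ZMod r) * finrank F U ≤
      finrank F W * finrank F U + finrank F U := by
  obtain ⟨S, h1, h2⟩ := gen_cyc (f := a.dualMap) h h3 (by
    have : ∀ n, (a.dualMap : End F (Dual F W)) ^ n = (a ^ n).dualMap := fun n => by
      induction n with
      | zero => rfl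
      | succ n ih => rw [pow_succ, ih, pow_succ']; rfl
    rw [this, h1]; rfl) (by simpa using dual_ne ha 1)
  rw [Subspace.dual_finrank_eq] at h2
  have := kd_map_le (c := 1) hb h1
  nlinarith [Nat.mul_le_mul_right (finrank F U) h2]

theorem map_pow_one [Nontrivial W] [Nontrivial U] {r : ℕ} [hr : Fact r.Prime]
    (hi : orderOf (Nat.card F : ZMod r) ≠ 1) (ha : Function.Injective a) (hb : Function.Injective b)
    (h : (map a b : End F (W ⊗[F] U)) ^ r = 1) :
    ∃ w : F, w ≠ 0 ∧ (w • a) ^ r = 1 ∧ (w⁻¹ • b) ^ r = 1 := by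
  have h1 := finrank_pos (R := F) (M := W)
  have h2 := finrank_pos (R := F) (M := U)
  have h3 : kd (map (a ^ r) (b ^ r) : End F (W ⊗[F] U)) (X - C 1) = finrank F W * finrank F U := by
    rw [← finrank_tensorProduct, kd_eq_finrank_iff, ← TensorProduct.map_pow, h]; simp
  have h4 : Function.Injective (a ^ r) := End.coe_pow a r ▸ ha.iterate r
  have h5 : Function.Injective (b ^ r) := End.coe_pow b r ▸ hb.iterate r
  obtain ⟨c, hc⟩ : ∃ c : F, a ^ r = c • 1 := by
    by_contra! h6; have := kd_map_one h6 h5 1; omega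
  obtain ⟨d, hd⟩ : ∃ c : F, b ^ r = c • 1 := by
    by_contra! h6; have := kd_map_one h6 h4 1
    rw [← kd_of_eq (elemDiv_map_comm _ _), mul_comm] at this; omega
  obtain ⟨x, hx⟩ := exists_ne (0 : W)
  obtain ⟨z, hz⟩ := exists_ne (0 : U)
  have h6 : d * c = 1 := smul_left_injective F hz (Root.Mx.tmul_inj (F := F) hx (by
    have := congr($h (x ⊗ₜ z))
    rw [TensorProduct.map_pow, hc, hd] at this
    rw [tmul_smul, tmul_smul]; simpa [smul_tmul, smul_smul, mul_comm] using this))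
  obtain ⟨w, rfl⟩ := (pow_bijective hi).2 d
  have h7 : w ≠ 0 := by rintro rfl; simp [hr.out.ne_zero] at h6
  exact ⟨w, h7, by rw [_root_.smul_pow, hc, smul_smul, h6, one_smul],
    by rw [_root_.smul_pow, hd, smul_smul, ← mul_pow, inv_mul_cancel₀ h7, one_pow, one_smul]⟩

/-- `h` preserves the tensor decomposition `Θ`. -/
def Tn (Θ : W ⊗[F] U ≃ₗ[F] V) (h : End F V) : Prop :=
  ∃ (a : End F W) (b : End F U), Function.Injective a ∧ Function.Injective b ∧ h = Θ.conj (map a b)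

variable {Θ : W ⊗[F] U ≃ₗ[F] V}

omit [Finite F] [FiniteDimensional F V] [FiniteDimensional F W] [FiniteDimensional F U] in
theorem Tn.smul (w : F) (h : End F V) (hw : w ≠ 0) : Tn Θ h → Tn Θ (w • h) := by
  rintro ⟨a, b, h1, h2, rfl⟩
  exact ⟨w • a, b, (smul_right_injective W hw).comp h1, h2, by rw [map_smul_left, map_smul]⟩

theorem elemDiv_conj (e : W ≃ₗ[F] V) (a : End F W) : elemDiv (e.conj a) = elemDiv a :=
  elemDiv_congr e.symm fun v => by simp [LinearEquiv.conj_apply]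

theorem inG_tn {ι : Type} [Fintype ι] [DecidableEq ι] {k m : ℕ} {e : ι ≃ Fin k × Fin m} {P : GL ι F} :
    InG (Geo.tensorProductSubgroup k m e P) = Tn ((Root.Mx.kE F _ _).trans (Asch.tv e P)) := by
  refine inG_iff (fun g => Root.Mx.mem_tensor.trans ⟨fun ⟨a, b, h⟩ => ⟨a, b, a.injective, b.injective,
    ?_⟩, fun ⟨a, b, h1, h2, h⟩ => ⟨.ofInjectiveEndo a h1, .ofInjectiveEndo b h2, fun w u => ?_⟩⟩) ?_
  · rw [← LinearEquiv.symm_apply_eq]
    exact TensorProduct.ext' fun w u => h w u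
  · rw [← LinearEquiv.symm_apply_eq] at h
    exact congr($h (w ⊗ₜ u))
  · rintro _ ⟨a, b, h1, h2, rfl⟩
    exact fun x y h => (LinearEquiv.injective _) (TensorProduct.map_injective_of_flat_flat _ _ h1 h2
      ((LinearEquiv.injective ((Root.Mx.kE F _ _).trans (Asch.tv e P))) h))

theorem Cj.ten [Nontrivial W] [Nontrivial U] (H : Cj (Tn Θ) y) :
    (∃ d, (d = finrank F W ∨ d = finrank F U) ∧ ∀ g, Irreducible g → d * g.natDegree ∣ kd y g) ∨
    ((∀ c, kd y (X - C c) + finrank F U ≤ finrank F V ∧ kd y (X - C c) + finrank F W ≤ finrank F V) ∧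
      ∀ (r : ℕ) [Fact r.Prime], (r : F) ≠ 0 → 2 < r → y ^ r = 1 → ∀ i, i = orderOf (Nat.card F : ZMod r) →
        i ≠ 1 → i ≤ finrank F W ∧ i ≤ finrank F U ∧
          kd y (X - C 1) + i * finrank F U ≤ finrank F V + finrank F U ∧
          kd y (X - C 1) + i * finrank F W ≤ finrank F V + finrank F W) := by
  obtain ⟨_, ⟨a, b, ha, hb, rfl⟩, h⟩ := H
  rw [elemDiv_conj] at h
  have h' := (elemDiv_map_comm b a).trans h
  simp only [← Θ.finrank_eq, finrank_tensorProduct]
  by_cases h1 : ∃ c : F, a = c • 1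
  · obtain ⟨c, rfl⟩ := h1
    refine Or.inl ⟨_, Or.inl rfl, fun g hg => ?_⟩
    rw [← kd_of_eq h, map_smul_left, ← map_smul_right]
    exact (Nat.mul_dvd_mul_left _ (irr_dvd_kd hg _)).trans (kd_lTensor _ g).symm.dvd
  by_cases h2 : ∃ c : F, b = c • 1
  · obtain ⟨c, rfl⟩ := h2
    refine Or.inl ⟨_, Or.inr rfl, fun g hg => ?_⟩
    rw [← kd_of_eq h', map_smul_left, ← map_smul_right]
    exact (Nat.mul_dvd_mul_left _ (irr_dvd_kd hg _)).trans (kd_lTensor _ g).symm.dvd
  push Not at h1 h2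
  refine Or.inr ⟨fun c => ⟨kd_of_eq h _ ▸ kd_map_one h1 hb c, ?_⟩, fun r _ h0 h3 h4 i hi h5 => ?_⟩
  · rw [← kd_of_eq h', mul_comm]; exact kd_map_one h2 ha c
  subst hi
  obtain ⟨w, a1, a2, a3⟩ := map_pow_one h5 ha hb (pow_of_eq' h.symm h4)
  have b1 : ∀ c : F, w • a ≠ c • 1 := fun c e => h1 (w⁻¹ * c) (by
    rw [← smul_smul, ← e, smul_smul, inv_mul_cancel₀ a1, one_smul])
  have b2 : ∀ c : F, w⁻¹ • b ≠ c • 1 := fun c e => h2 (w * c) (by
    rw [← smul_smul, ← e, smul_smul, mul_inv_cancel₀ a1, one_smul])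
  have b3 := kd_map_cyc h0 h3 a2 b1 (b := w⁻¹ • b) ((smul_right_injective U (inv_ne_zero a1)).comp hb)
  have b4 := kd_map_cyc h0 h3 a3 b2 (b := w • a) ((smul_right_injective W a1).comp ha)
  rw [map_smul_left, map_smul_right, smul_smul, mul_inv_cancel₀ a1, one_smul, kd_of_eq h] at b3
  rw [map_smul_left, map_smul_right, smul_smul, inv_mul_cancel₀ a1, one_smul, kd_of_eq h', mul_comm
    (finrank F U)] at b4
  exact ⟨(Nat.le_of_dvd (Nat.pos_of_ne_zero (rk_eq_zero.not.2 (by simpa using b1 1)))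
    (rk_dvd h0 h3 a2)).trans (rk_le _), (Nat.le_of_dvd (Nat.pos_of_ne_zero (rk_eq_zero.not.2
    (by simpa using b2 1))) (rk_dvd h0 h3 a3)).trans (rk_le _), b3, b4⟩

theorem Cj.ten_fix (ha : 2 ≤ finrank F U) (hb : 3 ≤ finrank F W) (H : Cj (Tn Θ) y) {k : ℕ}
    (h0 : 0 < k) (h2 : k ≤ 2) (hk : kd y (X - C 1) + k = finrank F V) :
    k = 2 ∧ finrank F U = 2 ∧ ∀ t, 2 ∣ kd y (X - C t) := by
  have : Nontrivial W := (finrank_pos_iff (R := F)).1 (by omega)
  have : Nontrivial U := (finrank_pos_iff (R := F)).1 (by omega)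
  rcases H.ten with ⟨d, h3, h4⟩ | h3
  · have h5 : ∀ t, d ∣ kd y (X - C t) := fun t => by simpa using h4 _ (irreducible_X_sub_C t)
    have h6 : d ∣ finrank F V := by
      rw [← Θ.finrank_eq, finrank_tensorProduct]; rcases h3 with rfl | rfl <;> simp
    have := Nat.le_of_dvd h0 ((Nat.dvd_add_right (h5 1)).1 (hk ▸ h6))
    obtain rfl : d = 2 := by omega
    exact ⟨by omega, by omega, h5⟩
  · have := (h3.1 1).2; omega

theorem Cj.ten_blk (ha : 2 ≤ finrank F U) (hb : 3 ≤ finrank F W) (H : Cj (Tn Θ) y) {r : ℕ}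
    [Fact r.Prime] (h : (r : F) ≠ 0) (h3 : 2 < r) (h1 : y ^ r = 1) {i c : ℕ}
    (hi : i = orderOf (Nat.card F : ZMod r)) (h2 : i ≠ 1) (hc : kd y (X - C 1) + c = finrank F V)
    {g : F[X]} (hg : Irreducible g) (h4 : 0 < kd y g) (h5 : kd y g ≤ g.natDegree) :
    i ≤ finrank F U ∧ i ≤ finrank F W ∧ i * finrank F U ≤ c + finrank F U ∧
      i * finrank F W ≤ c + finrank F W := by
  have : Nontrivial W := (finrank_pos_iff (R := F)).1 (by omega)
  have : Nontrivial U := (finrank_pos_iff (R := F)).1 (by omega)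
  rcases H.ten with ⟨d, a1, a2⟩ | a1
  · have := Nat.le_of_dvd h4 (a2 g hg)
    have : 2 ≤ d := by omega
    nlinarith
  · have := a1.2 r h h3 h1 i hi h2; omega

omit [FiniteDimensional F W] [FiniteDimensional F U] in
theorem cj_ten_left {g : End F U} (hg : Function.Injective g) {c : F} (hc : ¬ ∃ w, w ^ 2 = c)
    (h1 : g ^ 2 = c • 1) (h2 : f ^ 2 = c • 1) : Cj (Tn Θ) f :=
  ⟨_, ⟨1, g, fun _ _ h => h, hg, rfl⟩, eq_of_sq hc (conj_pow Θ (g := c • 1) (by
    rw [TensorProduct.map_pow, h1, one_pow, map_smul_right, TensorProduct.map_one])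
    (by rw [map_smul]; exact congrArg _ (Θ.conj_id)))  h2⟩

theorem conj_map_inv (h1 : a ^ 2 = 1) : Θ.conj (map a 1) ^ 2 = 1 ∧
    kd (Θ.conj (map a 1)) (X - C (-1)) = finrank F U * kd a (X - C (-1)) :=
  ⟨conj_pow Θ (g := 1) (by rw [TensorProduct.map_pow, h1, one_pow, TensorProduct.map_one]) Θ.conj_id,
    by rw [kd_of_eq ((elemDiv_conj _ _).trans (elemDiv_map_comm _ _))]; exact kd_lTensor _ _⟩

theorem ten_sl (Θ : W ⊗[F] U ≃ₗ[F] V) (ha : 2 ≤ finrank F U) (hb : finrank F U < finrank F W) {r : ℕ}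
    [hr : Fact r.Prime] (hΩ : r ∣ glo (Nat.card F) (finrank F V)) :
    (∀ f : End F V, LinearMap.det f = 1 → PE r f → Cj (Tn Θ) f) ↔ r = 2 ∧ finrank F U = 2 ∧
      Odd (Nat.card F) ∧ padicValNat 2 (Nat.card F - 1) ≤ padicValNat 2 (finrank F V) := by
  classical
  have hV : finrank F V = finrank F W * finrank F U := by rw [← Θ.finrank_eq, finrank_tensorProduct]
  have h6 : 3 ≤ finrank F V := by nlinarith
  have hb' : 3 ≤ finrank F W := by omega
  rw [odd_card_iff]
  by_cases h : (r : F) = 0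
  · have := (CharP.charP_iff_prime_eq_zero hr.out).2 h
    obtain ⟨y, a1, a2, a3⟩ := exists_tv (F := F) (V := V) (p := r) (by omega)
    exact iff_of_false (fun H => absurd ((H y a1 a2).ten_fix ha hb' one_pos one_le_two a3).1 (by omega))
      (by rintro ⟨rfl, -, h6, -⟩; exact h6 h)
  rcases hr.out.eq_two_or_odd' with rfl | ho
  · replace h : (2 : F) ≠ 0 := h
    by_cases h2 : finrank F U = 2
    · rw [h2] at hV
      refine (forall_refl h (by omega) ⟨finrank F W, by omega⟩ (Cj.smul Tn.smul) (fun y a1 a2 => ?_)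
        (fun f c a1 a2 => ?_) fun y _ a2 H => absurd (H.ten_fix ha hb' one_pos one_le_two a2).1
          (by omega)).trans (by simp [h, h2])
      · have := kd_le y (X - C (-1))
        obtain ⟨j, a2⟩ := a2
        obtain ⟨a, a3⟩ := exists_dg (V := W) (T := Multiset.replicate j (-1 : F) +
          Multiset.replicate (finrank F W - j) 1) (by simp; omega)
        have a4 : a ^ 2 = 1 := a3.pow_iff.2 fun t ht => by
          rcases Multiset.mem_add.1 ht with h | h <;> simp [Multiset.eq_of_mem_replicate h]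
        obtain ⟨a5, a6⟩ := conj_map_inv (Θ := Θ) a4
        refine ⟨_, ⟨a, 1, inj_of_pow two_ne_zero a4, fun _ _ h => h, rfl⟩, eq_of_inv h a5 a1 ?_⟩
        rw [a6, a3.kd, a2, h2]
        have : (1 : F) ≠ -1 := fun e => h (by linear_combination e)
        simp [Multiset.count_replicate, this, two_mul]
      · obtain ⟨g, a3, -⟩ := exists_exc (V := U) (k := 1) a2 (by omega)
        refine cj_ten_left (g := g) ((injective_iff_map_eq_zero _).2 fun v hv => ?_) a2 a3 a1
        have := congr($a3 v)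
        rw [sq, End.mul_apply, hv, map_zero, eq_comm] at this
        exact (smul_eq_zero.1 this).resolve_left fun e => a2 ⟨0, by simp [e]⟩
    · obtain ⟨y, a1, a2, -, a3, -⟩ := exists_refl2 (V := V) h6 (t := (-1 : F)) (r := 2) (by simp)
        (fun e => h (by linear_combination -e)) two_ne_zero
      exact iff_of_false (fun H => h2 ((H y a1 a2).ten_fix ha hb' two_pos le_rfl a3).2.1) (by simp [h2])
  have h3 : 2 < r := hr.out.two_le.lt_of_ne (by rintro rfl; exact absurd ho (by decide))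
  refine iff_of_false (fun H => ?_) (by omega)
  by_cases hi : orderOf (Nat.card F : ZMod r) = 1
  · obtain ⟨χ, b1, b2⟩ := exists_chi hi
    have b3 : χ 1 ≠ 1 := fun e => one_ne_zero (b1 (e.trans χ.map_zero_eq_one.symm))
    obtain ⟨y, a1, a2, -, a3, a4⟩ := exists_refl2 (V := V) h6 ((b2 _).2 ⟨1, rfl⟩) b3 (by omega)
    have := ((H y a1 a2).ten_fix ha hb' two_pos le_rfl a3).2.2 (χ 1)
    rw [a4 fun e => ?_] at this
    · omega
    · rw [← AddChar.map_neg_eq_inv] at e
      simpa using (neg_one_pow_inj h3 (a := 1) (b := 0)).1 (by simpa using b1 e)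
  have h4 := exists_dvd_of_glo Finite.one_lt_card (not_dvd_card' h) (Nat.zero_le _)
    (show r * glo _ 0 ∣ _ by simpa [glo] using hΩ)
  have h5 := ord_pos h
  obtain ⟨y, a1, a2, a3, a4⟩ := exists_blocks (V := V) h one_pos (by
    rw [mul_one]; exact (Nat.div_pos_iff.1 (by simpa using h4)).2)
  obtain ⟨g, b1, -, -, b2, b3, b4, -⟩ := exists_irr (y := y) (pol_cyc h h3) (by omega)
  obtain ⟨c1, -, -, c2⟩ := ((forall_two_le hi (by omega) (Cj.smul Tn.smul)).1 H y a1 a2).ten_blk ha hb' h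
    h3 a1 rfl hi a4 b1 b3 (by omega)
  have : 2 ≤ orderOf (Nat.card F : ZMod r) := by omega
  nlinarith

theorem Spu.exists_four {Φ : Formed (RingHom.id F) V} (hΦ : Spu Φ) (hn : Φ.Nondeg) (h2 : (2 : F) ≠ 0) :
    ∃ f, Iso Φ f ∧ f ^ 2 = -1 := by
  obtain ⟨k, hk⟩ := (hΦ.even rfl hn).two_dvd
  by_cases hw : ∃ w : F, w ^ 2 = -1
  · obtain ⟨w, hw⟩ := hw
    simpa [hw] using exists_type_two hΦ hn (hΦ.even rfl hn) (w := w) (by rwa [sq] at hw)
  · simpa [(hΦ.resolve_right (·.1 rfl)).2.1, sim_one] using exists_sim_sq hw h2 k (Or.inl hΦ) hn hk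

theorem ten_sp {Φ : Formed (RingHom.id F) V} {Φ₁ : Formed (RingHom.id F) W}
    {Φ₂ : Formed (RingHom.id F) U} (hΦ : Spu Φ) (hn : Φ.Nondeg) (h₁ : Orth Φ₁) (n₁ : Φ₁.Nondeg)
    (h₂ : Spu Φ₂) (n₂ : Φ₂.Nondeg) {c : F} (hB : ∀ w u w' u',
      Φ.B (Θ (w ⊗ₜ u)) (Θ (w' ⊗ₜ u')) = c * Φ₁.B w w' * Φ₂.B u u') (h2 : (2 : F) ≠ 0)
    (ha : 2 ≤ finrank F U) (hb : 3 ≤ finrank F W) {r : ℕ} [hr : Fact r.Prime]
    (hΩ : r ∣ Nat.card Φ.isom) :
    (∀ f, Iso Φ f → PE r f → Cg (Iso Φ) (Tn Θ) f) ↔ r = 2 ∧ finrank F U = 2 := by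
  have hV : finrank F V = finrank F W * finrank F U := by rw [← Θ.finrank_eq, finrank_tensorProduct]
  have h6 : 3 ≤ finrank F V := by nlinarith
  have : Nontrivial V := (finrank_pos_iff (R := F)).1 (by omega)
  have key : ∀ y, Iso Φ y → Cg (Iso Φ) (Tn Θ) y → Cj (Tn Θ) y := fun y h1 h2 =>
    (h2.exists hn h1).imp fun _ h => h.2
  have iso : ∀ a b, Iso Φ₁ a → Iso Φ₂ b → Iso Φ (Θ.conj (map a b)) := fun a b h1 h3 => hΦ.iso.2 fun u v => by
    obtain ⟨u, rfl⟩ := Θ.surjective u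
    obtain ⟨v, rfl⟩ := Θ.surjective v
    simp only [LinearEquiv.conj_apply_apply, LinearEquiv.symm_apply_apply]
    induction u with
    | zero => simp
    | add _ _ h h' => simp [h, h']
    | tmul =>
      induction v with
      | zero => simp
      | add _ _ h h' => simp only [map_add, h, h']
      | tmul => simp [hB, h1.1, h3.1]
  by_cases h : (r : F) = 0
  · have := (CharP.charP_iff_prime_eq_zero hr.out).2 h
    obtain ⟨y, a1, a2, a3⟩ := hΦ.exists_tv hn (p := r) (by omega)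
    exact iff_of_false (fun H => absurd ((key y a1 (H y a1 a2)).ten_fix ha hb one_pos one_le_two a3).1
      (by omega)) (by rintro ⟨rfl, -⟩; exact h2 h)
  rcases hr.out.eq_two_or_odd' with rfl | ho
  · rw [forall_two_id hn h2 fun _ h => h]
    refine ⟨fun H => ?_, fun ⟨_, a2⟩ => ⟨fun f b1 b2 _ _ => ?_, fun f b1 b2 => ?_⟩⟩
    · obtain ⟨Z, a1, a2⟩ := hΦ.exists_nd hn (l := 2) (by omega) fun _ => even_two
      obtain ⟨y, a3, a4, a5⟩ := exists_neg_on hn h2 a1
      have a6 : kd y (X - C 1) + kd y (X - C (-1)) = _ := finrank_fix (isCoprime_two h2) (aeval_two a4)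
      exact ⟨rfl, ((key y a3 (H.1 y a3 a4 (by
        rintro rfl; have : kd (1 : End F V) (X - C 1) = _ := kd_eq_finrank_iff.2 (by simp); omega) (by
        rintro rfl; have : kd (-1 : End F V) (X - C (-1)) = _ := kd_eq_finrank_iff.2 (by simp)
        omega))).ten_fix ha hb two_pos le_rfl (by omega)).2.1⟩
    · obtain ⟨j, hj⟩ := (hΦ.even_kd hn h2 b1 b2).two_dvd
      have := kd_le f (X - C (-1))
      rw [a2] at hV
      obtain ⟨Z, a1, a3⟩ := h₁.exists_nd n₁ h2 (l := j) (by omega)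
      obtain ⟨g, a4, a5, a6⟩ := exists_neg_on n₁ h2 a1
      obtain ⟨a7, a8⟩ := conj_map_inv (Θ := Θ) a5
      exact hΦ.cg hn b1 (iso _ _ a4 Iso.one) (n := 2) h2 a7 (eq_of_inv h2 a7 b2 (by
        rw [a8, a6, a3, a2, hj])) ⟨g, 1, a4.injective n₁, fun _ _ h => h, rfl⟩
    · obtain ⟨J, a3, a4⟩ := h₂.exists_four n₂ h2
      exact hΦ.cg_four hn h2 b1 (iso _ _ Iso.one a3) b2 (conj_pow Θ (g := (-1 : F) • 1) (by
        rw [TensorProduct.map_pow, a4, one_pow, ← neg_one_smul F, map_smul_right, TensorProduct.map_one])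
        (by rw [map_smul, neg_one_smul]; exact congrArg _ Θ.conj_id))
        ⟨1, J, fun _ _ h => h, a3.injective n₂, rfl⟩
  have h3 : 2 < r := hr.out.two_le.lt_of_ne (by rintro rfl; exact absurd ho (by decide))
  refine iff_of_false (fun H => ?_) (by omega)
  obtain ⟨d, hd⟩ := (hΦ.even rfl hn).two_dvd
  rw [hΦ.card_alt hn hd] at hΩ
  obtain ⟨j, a1, a2, a4⟩ := exists_dvd_of_sp (u := 0) Finite.one_lt_card (not_dvd_card' h) d.zero_le
    (by simpa [spOrd] using hΩ)
  obtain ⟨y, b1, b2, b3, b4, b5⟩ := hΦ.exists_block hn h h3 ((Nat.le_of_dvd (by omega) a4).trans (by omega))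
  have H' := key y b1 (H y b1 b2)
  have h5 := ord_pos h
  have hp := pol_cyc h h3
  obtain ⟨g, c1, c2, c3, c4, c5, c6, c7⟩ := exists_irr (y := y) hp (b4 ▸ cdim_pos h5)
  have c8 : kd y g ≤ g.natDegree := by
    rcases typ_id h h3 with ⟨-, e⟩ | ⟨e, e'⟩
    · omega
    · have f1 := b1.ff hn hp.cop (aeval_split b3)
      have f2 := Submodule.finrank_mono (e.ti f1 c1 c2 c3)
      rw [f1.nd.finrank_perp] at f2
      change kd (inv_ker_aeval y _).res g ≤ kd y _ - kd (inv_ker_aeval y _).res g at f2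
      omega
  generalize hi : orderOf (Nat.card F : ZMod r) = i at *
  obtain ⟨k, hk⟩ := (h₂.even rfl n₂).two_dvd
  by_cases h7 : i = 1
  · subst h7
    have := (H'.ten_fix ha hb two_pos le_rfl b5).2.2 (-g.coeff 0)
    rw [map_neg, sub_neg_eq_add, ← c2.eq_X_add_C c4] at this
    omega
  obtain ⟨d1, d2, d3, d4⟩ := H'.ten_blk ha hb h h3 b3 hi.symm h7 b5 c1 c5 c8
  rcases Nat.even_or_odd i with e | e
  · rw [cdim_even e] at d4
    have : 2 ≤ i := by omega
    nlinarith
  · rw [cdim_odd e] at d3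
    obtain ⟨t, rfl⟩ := e
    have : t + 1 ≤ k := by omega
    have : 1 ≤ t := by omega
    rw [hk] at d3
    nlinarith

omit [Finite F] in
theorem exists_symm {ι : Type} [Fintype ι] [DecidableEq ι] {B : (ι → F) → (ι → F) → F}
    (hB : Geo.IsSymmetricForm B) (h2 : (2 : F) ≠ 0) :
    ∃ Φ : Formed (RingHom.id F) (ι → F), Orth Φ ∧ Φ.Nondeg ∧ ∀ u v, Φ.B u v = 2 * B u v := by
  have hb := hB.bilinear
  have h : ∀ u v, (ofQuad (LinearMap.BilinMap.toQuadraticMap (LinearMap.mk₂ F B hb.add_left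
      hb.smul_left hb.add_right hb.smul_right))).B u v = 2 * B u v := fun u v =>
    (LinearMap.BilinMap.polar_toQuadraticMap u v).trans (by simp [hB.symm v, two_mul])
  exact ⟨_, orth_quad _, fun x hx => by_contra fun h0 => (hB.nondegenerate x h0).2.elim fun y hy =>
    mul_ne_zero h2 hy ((h _ _).symm.trans (hx y)), h⟩

end Cfsg.Agent.Elu
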