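import Cfsg.Agent.Elu.XsTool
import Mathlib.GroupTheory.SpecificGroups.Quaternion

/-! Elusivity criteria for normalisers of symplectic-type `2`-groups in dimensions `4` (`xs_sl4`,
`xs_su4`, `xs_sp4`) and `2` (`xs_sl2`). -/

set_option autoImplicit false
set_option linter.unusedSectionVars false

namespace Cfsg.Agent.Elu

open Module Polynomial Cfsg.Agent.Classical Cfsg.Agent.Geom Cfsg.Agent.Geom.Formed

universe u

variable {F : Type*} [Field F] [Finite F] {V : Type u} [AddCommGroup V] [Module F V]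
  [FiniteDimensional F V] {R : Subgroup (End F V)ˣ} {f g y : End F V}

/-- A symplectic-type group in dimension four with centre of order `z`. -/
structure D4 (R : Subgroup (End F V)ˣ) (z : ℕ) : Prop where
  xs : Xs R
  dim : finrank F V = 4
  cz : Nat.card (R ⊓ Subgroup.centralizer (R : Set (End F V)ˣ) : Subgroup _) = z
  cr : Nat.card R = 16 * z
  hz : z = 2 ∨ z = 4

theorem pe_of {r : ℕ} (h1 : y ^ r = 1) (h2 : ∀ c : F, y ≠ c • 1) : PE r y := ⟨⟨1, by simpa⟩, h2⟩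

theorem exists_omega (hi : orderOf (Nat.card F : ZMod 3) = 1) : ∃ w : F, w ^ 3 = 1 ∧ w ≠ 1 := by
  obtain ⟨χ, b1, b2⟩ := exists_chi hi
  exact ⟨χ 1, (b2 _).2 ⟨1, rfl⟩, fun h => one_ne_zero (b1 (h.trans χ.map_zero_eq_one.symm))⟩

theorem ord_three {n k : ℕ} (h : n % 3 = k) : (k = 1 → orderOf (n : ZMod 3) = 1) ∧
    (k = 2 → orderOf (n : ZMod 3) = 2) := by
  rw [← ZMod.natCast_mod, h]
  refine ⟨?_, ?_⟩ <;> rintro rfl
  · simp
  · exact orderOf_eq_prime (p := 2) rfl (by decide)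

theorem five_ne {p : ℕ} [hp : Fact p.Prime] [CharP F p] (h : orderOf (p : ZMod 5) = 4) :
    ((5 : ℕ) : F) ≠ 0 := by
  have := Fact.mk Nat.prime_five
  refine cast_ne_zero_of_ne (p := p) ?_
  rintro rfl
  rw [ZMod.natCast_self, orderOf_zero] at h
  omega

namespace D4

variable {z : ℕ} (D : D4 R z)
include D

theorem fin : Finite R := Nat.finite_of_card_ne_zero (by have := D.cr; have := D.hz; omega)

theorem four : (finrank F V : F) ≠ 0 := by
  rw [D.dim, show ((4 : ℕ) : F) = 2 * 2 by norm_num]; exact mul_ne_zero D.xs.two D.xs.two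

theorem neg {r : ℕ} [hr : Fact r.Prime] (h2 : r ≠ 2) (h : Cj (Nm R) y) (h1 : y ^ r = 1)
    (hn : ∀ c : F, y ≠ c • 1) : (r = 3 ∨ r = 5) ∧ (∀ c, kd y (X - C c) ≤ 2) ∧
      (r = 5 → LinearMap.trace F V y * LinearMap.trace F V (y ^ (r - 1)) = 1) ∧
      (Xs.Mi R → z = 2 → r = 3 → LinearMap.trace F V y * LinearMap.trace F V (y ^ (r - 1)) = 4) := by
  have := D.fin
  obtain ⟨g, a1, a2, a3, a4⟩ := h.unit h1 hn
  have ho := hr.out.odd_of_ne_two h2
  have b1 := D.xs.cases a1 h2 a2 a3 D.hz D.cz D.cr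
  have b2 := D.xs.trace_formula a1 ho a2
  rw [show g⁻¹ = g ^ (r - 1) from (eq_inv_of_mul_eq_one_left (by
    rw [← pow_succ, Nat.sub_add_cancel ho.pos, a2])).symm, Units.val_pow_eq_pow_val, trace_of_eq a4,
    ← pow_one g.1, trace_of_eq a4, pow_one, D.cr, D.dim] at b2
  have h0 := D.xs.two
  have hz : (16 * z : F) ≠ 0 := by
    rcases D.hz with rfl | rfl
    · rw [show (16 * (2 : ℕ) : F) = 2 ^ 5 by norm_num]; exact pow_ne_zero _ h0
    · rw [show (16 * (4 : ℕ) : F) = 2 ^ 6 by norm_num]; exact pow_ne_zero _ h0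
  refine ⟨by omega, fun c => ?_, fun h5 => mul_left_cancel₀ hz ?_, fun hm h3 h5 => mul_left_cancel₀ hz ?_⟩
  · by_contra! h3
    obtain ⟨c, hc⟩ := D.xs.big a1 ho a2 (c := c) (by rw [kd_of_eq a4, D.dim]; omega)
    exact a3 c hc
  · rw [(b1.resolve_right (by omega)).1] at b2
    push_cast at b2
    linear_combination b2
  · subst h3 h5
    obtain ⟨a, ha, b, -, c, -, d, -, G⟩ := D.xs.exists_gam_minus hm D.cz D.cr
    have := D.xs.three_minus hm a1 a2 D.cz ha (Units.ext G.aa) fun c hc =>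
      D.xs.not_comm G.ba (Units.ext (by simp [hc]))
    rw [(b1.resolve_left fun h => this h.1).1] at b2
    push_cast at b2 ⊢
    linear_combination b2

theorem not_tv {r : ℕ} [hr : Fact r.Prime] (h2 : r ≠ 2) (h1 : y ^ r = 1) (h3 : rk y = 1) :
    ¬ Cj (Nm R) y := fun h => by
  have a1 := rk_add_kd (f := y)
  have a2 := D.dim
  have := (D.neg h2 h h1 fun c hc => by
    obtain ⟨⟨v, hv⟩, h4⟩ := (Module.finrank_pos_iff_exists_ne_zero (R := F)).1
      (show 0 < kd y (X - C 1) by omega)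
    have h5 := mem_fixA.1 hv
    rw [hc, LinearMap.smul_apply, End.one_apply] at h5
    rw [smul_left_injective F (by simpa using h4) (h5.trans (one_smul F v).symm), one_smul,
      ← rk_eq_zero] at hc
    omega).2.1 1
  omega

theorem not_refl {w : F} (h1 : w ^ 3 = 1) (h2 : w ≠ 1) (h : Dg y {1, 1, 1, w}) :
    y ^ 3 = 1 ∧ (∀ c : F, y ≠ c • 1) ∧ (w ^ 2) ^ finrank F V * LinearMap.det y = 1 ∧ ¬ Cj (Nm R) y := by
  classical
  have a1 : y ^ 3 = 1 := h.pow_iff.2 (by simp [h1])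
  have a2 := h.ne_smul (s := 1) (t := w) (by simp) (by simp) h2.symm
  refine ⟨a1, a2, by rw [h.det, D.dim]; simp; grind, fun h3 => ?_⟩
  have := (D.neg (by norm_num) h3 a1 a2).2.1 1
  rw [h.kd] at this
  simp [h2.symm] at this

theorem not_five {c : F} (h : Tvp c y) (hc : c ^ 2 + 5 * c + 5 = 0) (h5 : ((5 : ℕ) : F) ≠ 0) :
    y ^ 5 = 1 ∧ (∀ c : F, y ≠ c • 1) ∧ LinearMap.det y ^ finrank F V * LinearMap.det y = 1 ∧
      ¬ Cj (Nm R) y := by
  have := Fact.mk Nat.prime_five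
  obtain ⟨a1, a2, a3, a4⟩ := h.bad (r := 5) (Or.inr ⟨rfl, hc⟩) h5 D.four
  refine ⟨a1, a2, by rw [D.dim, ← pow_succ, ← map_pow, a1, map_one], fun h3 => ?_⟩
  have := (D.neg (by norm_num) h3 a1 a2).2.2.1 rfl
  rw [a3, a4, D.dim] at this
  norm_num at h5 this
  grind

omit D

theorem invs (D : D4 R 4) (h1 : y ^ 2 = 1) (h2 : ∀ c : F, y ≠ c • 1) :
    ∃ h, Nu R 1 h ∧ h ^ 2 = 1 ∧ elemDiv h = elemDiv y := by
  have := D.fin
  have := D.xs.nt
  have h0 := D.xs.two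
  have hV := D.dim
  obtain ⟨⟨I, hI, i, i1, i2⟩, a, ha, b, hb, c, hc, d, hd, G⟩ := D.xs.exists_gam_four D.cz D.cr
  have key : ∀ y : End F V, y ^ 2 = 1 → (∀ c : F, y ≠ c • 1) → kd y (X - C 1) + kd y (X - C (-1)) = 4 ∧
      (kd y (X - C (-1)) = 2 ∧ LinearMap.trace F V y = 0 ∨ kd y (X - C (-1)) = 1 ∧
        LinearMap.trace F V y = 2 ∨ kd y (X - C (-1)) = 3 ∧ LinearMap.trace F V y = -2) := fun y a b => by
    obtain ⟨c1, c2⟩ := inv_kd h0 a
    have := kd_lt (b 1)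
    have := kd_lt (b (-1))
    rw [c2]
    refine ⟨by omega, ?_⟩
    rcases (by omega : kd y (X - C (-1)) = 1 ∧ kd y (X - C 1) = 3 ∨ kd y (X - C (-1)) = 2 ∧
      kd y (X - C 1) = 2 ∨ kd y (X - C (-1)) = 3 ∧ kd y (X - C 1) = 1) with h | h | h <;>
      rw [h.1, h.2] <;> norm_num
  obtain ⟨f, a1, a2, a3, a4⟩ := D.xs.cz ha hb hc hd G hI i1 i2 hV
  have t1 := D.xs.trace_anti (y := b) (a := a.1) G.ba
  have b1 := key f a2 fun t ht => h0 (by rw [← a4, ht]; simp [t1])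
  have b2 : a.1 ^ 2 = 1 := (pow_two _).trans G.aa
  have b3 := key a.1 b2 fun t ht => D.xs.not_comm G.ba (Units.ext (by simp [ht]))
  have b4 : kd f (X - C (-1)) = 1 := by grind
  have b5 : kd a.1 (X - C (-1)) = 2 := by grind
  rcases (key y h1 h2).2 with h | h | h
  · exact ⟨_, nu_of_mem ha, b2, eq_of_inv h0 b2 h1 (b5.trans h.1.symm)⟩
  · exact ⟨_, a1, a2, eq_of_inv h0 a2 h1 (b4.trans h.1.symm)⟩
  · exact ⟨_, a1.neg, by simpa using a2, eq_of_inv h0 (by simpa using a2) h1 (by rw [kd_neg]; omega)⟩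

theorem threes (D : D4 R 4) (h3 : ((3 : ℕ) : F) ≠ 0) {P : End F V → Prop} (hP : ∀ f, Nu R 1 f → P f)
    (hk : ∀ f, P f → f ^ 3 = 1 → ∃ s, kd f (X - C 1) + 2 * s = finrank F V) (h0 : P y) (h1 : y ^ 3 = 1)
    (h2 : y ≠ 1) : ∃ h, Nu R 1 h ∧ h ^ 3 = 1 ∧ kd h (X - C 1) = kd y (X - C 1) := by
  have := D.fin
  have hV := D.dim
  obtain ⟨⟨I, hI, i, i1, i2⟩, a, ha, b, hb, c, hc, d, hd, G⟩ := D.xs.exists_gam_four D.cz D.cr
  obtain ⟨⟨f, a1, a2⟩, g, b1, b2, b3, b4⟩ := D.xs.three ha hb hc hd G hI i1 i2 hV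
  obtain ⟨s, hs⟩ := hk y h0 h1
  have := kd_lt (y := y) (c := 1) (by simpa using h2)
  by_cases h4 : kd y (X - C 1) = 0
  · refine ⟨f, a1, ?_, h4 ▸ kd_of_isCoprime ?_ (isCoprime_cyclotomic h3).symm⟩
    · rw [pow_succ, pow_two, a2, sub_mul, a2, neg_one_mul]; abel
    · simp [cyclotomic_three, pow_two, a2]
  obtain ⟨t, ht⟩ := hk g (hP g b1) b2
  have h5 := D.xs.two
  norm_num at h3
  have := kd_lt (y := g) (c := 1) fun h => h3 (by
    rw [h, one_smul, LinearMap.trace_one, hV] at b3; push_cast at b3; linear_combination b3)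
  have : kd g (X - C 1) ≠ 0 := fun h => by
    have h6 := aeval_split b2
    rw [map_mul, (kd_eq_zero_iff.1 h).mul_right_eq_zero] at h6
    have h7 := congrArg (LinearMap.trace F V) h6
    simp [cyclotomic_three, pow_two, b3, b4, hV] at h7
    exact mul_ne_zero h5 h3 (by linear_combination h7)
  exact ⟨g, b1, b2, by omega⟩

end D4

theorem xs_sl4 (D : D4 R 4) {p : ℕ} [hp : Fact p.Prime] [CharP F p] (hF : Nat.card F = p) {r : ℕ}
    [hr : Fact r.Prime] (hΩ : ∃ y : End F V, LinearMap.det y = 1 ∧ y ^ r = 1 ∧ y ≠ 1) :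
    (∀ f : End F V, LinearMap.det f = 1 → PE r f → Cj (Nm R) f) ↔
      r = 2 ∨ (r = 3 ∧ p % 3 = 2) ∨ (r = 5 ∧ orderOf (p : ZMod 5) = 4) := by
  have := D.fin
  have hV := D.dim
  have hP := Cj.smul (Nm.smul (R := R))
  constructor
  · intro H
    refine or_iff_not_imp_left.2 fun h2 => ?_
    obtain ⟨y, a1, a2, a3⟩ := hΩ
    have a4 := ne_smul_of_det (((Nat.coprime_primes hr.out Nat.prime_two).2 h2).pow_right 2) hV a1 a2 a3
    have a5 : r ≠ p := by
      rintro rfl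
      obtain ⟨y, b1, b2, b3⟩ := exists_jt (F := F) (V := V) (p := r) one_lt_two hr.out.two_le (by omega)
      refine D.not_tv h2 b1 ?_ (H y (pe_char b1 b2).1 (pe_char b1 b2).2)
      have h5 := b3.kd 1
      have h6 := rk_add_kd (f := y)
      rw [kd, show aeval y (X - C 1 : F[X]) = (y - 1) ^ 1 by simp] at h6
      simp [hV] at h5 h6
      omega
    replace H := ((forall_pe_iff hP).1 H).1
    rcases (D.neg h2 (H y 1 a2 a4 (by simp [a1])) a2 a4).1 with rfl | rfl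
    · refine Or.inl ⟨rfl, by_contra fun h3 => ?_⟩
      have : p % 3 ≠ 0 := fun h =>
        a5 ((Nat.prime_dvd_prime_iff_eq hr.out hp.out).1 (Nat.dvd_of_mod_eq_zero h))
      obtain ⟨w, b1, b2⟩ := exists_omega (F := F) (hF ▸ (ord_three rfl).1 (by omega))
      obtain ⟨y, hy⟩ := exists_dg (V := V) (T := {1, 1, 1, w}) (by simp [hV])
      obtain ⟨c1, c2, c3, c4⟩ := D.not_refl b1 b2 hy
      exact c4 (H y _ c1 c2 c3)
    · refine Or.inr ⟨rfl, by_contra fun h3 => ?_⟩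
      obtain ⟨c, b1, -⟩ := exists_tau (F := F) D.xs.two h3
      obtain ⟨y, hy⟩ := exists_tp (F := F) (V := V) (by omega) c
      obtain ⟨c1, c2, c3, c4⟩ := D.not_five hy b1 (cast_ne_zero_of_ne a5)
      exact c4 (H y _ c1 c2 c3)
  obtain ⟨⟨I, hI, i, i1, i2⟩, a, ha, b, hb, c, hc, d, hd, G⟩ := D.xs.exists_gam_four D.cz D.cr
  rintro (rfl | ⟨rfl, h3⟩ | ⟨rfl, h5⟩)
  · refine (forall_pe_iff hP).2 ⟨fun y w a1 a2 _ => ?_, fun f c a0 a1 a2 a3 => ?_⟩
    · obtain ⟨h, b1, -, b2⟩ := D.invs a1 a2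
      exact ⟨h, b1.1, b2⟩
    · obtain ⟨-, k, b1, b2⟩ := (cases_pow (ne_zero_of_pow_eq (by simp [a3]) a0 a1) a1).resolve_left
        fun ⟨w, h, _⟩ => a2 ⟨w, h⟩
      rw [det_of_exc two_ne_zero b2, show k = 2 by omega] at a3
      rcases (by grind : c = 1 ∨ c = -1) with rfl | rfl
      exacts [(a2 ⟨1, by simp⟩).elim, (a2 ⟨i, by rw [sq, i1]⟩).elim]
  · have h0 : ((3 : ℕ) : F) ≠ 0 := cast_ne_zero_of_ne (p := p) (by rintro rfl; omega)
    have hi : orderOf (Nat.card F : ZMod 3) = 2 := hF ▸ (ord_three h3).2 rfl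
    rw [forall_two_le (by omega) (by omega) hP]
    intro y a1 a2
    obtain ⟨h, b1, b2, b3⟩ := D.threes h0 (P := fun _ => True) (fun _ _ => trivial)
      (fun f _ h => (cyc_kd h0 hi h).imp fun _ h => h.1) trivial a1 a2
    exact ⟨h, b1.1, eq_of_cyc h0 hi b2 a1 b3⟩
  · rw [forall_two_le (by rw [hF]; omega) (by omega) hP]
    intro y a1 a2
    obtain ⟨h, b1, b2, b3⟩ := D.xs.five ha hb hc hd G
    exact ⟨h, b1.1, eq_five (five_ne h5) (hF ▸ h5) hV b2 b3 a1 a2⟩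

theorem norm_root [Fintype F] {q : ℕ} {hF : Fintype.card F = q ^ 2} {r : ℕ} [hr : Fact r.Prime]
    (h : ¬ r ∣ q + 1) {c : F} (hc : frobq hF c * c = 1) : ∃ w, frobq hF w * w = 1 ∧ w ^ r = c := by
  obtain ⟨k, hk⟩ := exists_pow_eq_self_of_coprime ((hr.out.coprime_iff_not_dvd.2 h).coprime_dvd_right
    (orderOf_dvd_of_pow_eq_one ((norm_iff hF).1 hc)))
  exact ⟨c ^ k, by rw [map_pow, ← mul_pow, hc, one_pow], by rwa [← pow_mul, mul_comm, pow_mul]⟩

theorem xs_su4 [Fintype F] {p : ℕ} [hp : Fact p.Prime] [CharP F p] (hF : Fintype.card F = p ^ 2)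
    {R : Subgroup (End F (Fin 4 → F))ˣ} (D : D4 R 4) (hR : ∀ x ∈ R, Iso (hermFormed hF 4) x.1) {r : ℕ}
    [hr : Fact r.Prime] (hΩ : ∃ y, (Iso (hermFormed hF 4) y ∧ LinearMap.det y = 1) ∧ y ^ r = 1 ∧ y ≠ 1) :
    (∀ f, Iso (hermFormed hF 4) f ∧ LinearMap.det f = 1 → PE r f →
      Cg (fun f => Iso (hermFormed hF 4) f ∧ LinearMap.det f = 1) (Nm R) f) ↔
      r = 2 ∨ (r = 3 ∧ p % 3 = 1) ∨ (r = 5 ∧ orderOf (p : ZMod 5) = 4) := by
  have := D.fin
  have hV := D.dim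
  have hn := hermFormed_nondeg hF 4
  have hΦ : Spu (hermFormed hF 4) := spu_herm rfl
  have hi : p % 3 ≠ 0 → orderOf (Nat.card F : ZMod 3) = 1 := fun h => (ord_three rfl).1 (by
    rw [card_herm hF, Nat.pow_mod]
    rcases (by omega : p % 3 = 1 ∨ p % 3 = 2) with h | h <;> rw [h])
  rw [su_forall hn (Cg.smul Nm.smul)]
  constructor
  · rintro ⟨H, -⟩
    replace H := fun y w a b c d e => (H y w a b c d e).cj fun k h => h.1.injective hn
    refine or_iff_not_imp_left.2 fun h2 => ?_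
    obtain ⟨y, ⟨a0, a1⟩, a2, a3⟩ := hΩ
    have a4 := ne_smul_of_det (((Nat.coprime_primes hr.out Nat.prime_two).2 h2).pow_right 2) hV a1 a2 a3
    have a5 : r ≠ p := by
      rintro rfl
      obtain ⟨y, b1, b2, b3⟩ := hΦ.exists_trans hn (fun _ => D.xs.two) (by omega) (p := r)
      have b4 := pe_char b2 (by rw [Ne, ← rk_eq_zero]; omega)
      exact D.not_tv h2 b2 b3 (H y 1 b1 b2 b4.2.2 (by simp) (by simp [b4.1]))
    rcases (D.neg h2 (H y 1 a0 a2 a4 (by simp) (by simp [a1])) a2 a4).1 with rfl | rfl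
    · refine Or.inl ⟨rfl, by_contra fun h3 => ?_⟩
      have : p % 3 ≠ 0 := fun h =>
        a5 ((Nat.prime_dvd_prime_iff_eq hr.out hp.out).1 (Nat.dvd_of_mod_eq_zero h))
      obtain ⟨w, b1, b2⟩ := exists_omega (hi this)
      have b3 : frobq hF w * w = 1 := (norm_iff hF).2 (by
        rw [show p + 1 = 3 * ((p + 1) / 3) by omega, pow_mul, b1, one_pow])
      obtain ⟨y, b4, hy⟩ := real_dg (frobq_ne_id hF) {1, 1, 1, w} hΦ hn (by simp)
        (by simpa [-frobq_apply] using b3)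
      obtain ⟨c1, c2, c3, c4⟩ := D.not_refl b1 b2 hy
      exact c4 (H y _ b4 c1 c2 (by rw [map_pow, ← mul_pow, b3, one_pow]) c3)
    · refine Or.inr ⟨rfl, by_contra fun h3 => ?_⟩
      obtain ⟨c, b1, b2⟩ := exists_tau (F := F) D.xs.two h3
      obtain ⟨y, b3, hy⟩ := hΦ.exists_tp hn (by omega) (b2 _)
      obtain ⟨c1, c2, c3, c4⟩ := D.not_five hy b1 (cast_ne_zero_of_ne a5)
      exact c4 (H y _ b3 c1 c2 (b3.det_norm (frobq_ne_id hF) rfl hn) c3)
  obtain ⟨⟨I, hI, i, i1, i2⟩, a, ha, b, hb, c, hc, d, hd, G⟩ := D.xs.exists_gam_four D.cz D.cr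
  have hN : ∀ h, Nu R 1 h → Iso (hermFormed hF 4) h := fun h b => sim_one.1 (b.2 _ _ hΦ hn hR)
  rintro (rfl | ⟨rfl, h3⟩ | ⟨rfl, h5⟩)
  · refine ⟨fun y w a0 a1 a2 a3 a4 => ?_, fun f c a0 _ a1 a2 a3 a4 => ?_⟩
    · obtain ⟨h, b1, b2, b3⟩ := D.invs a1 a2
      exact su_cg a0 (hN h b1) a3 a4 (m := 2) D.xs.two b2 b3 b1.1
    · obtain ⟨w, b1, rfl⟩ := exists_sq_neg D.xs.two a2 a3
      rw [(type_two hΦ hn D.xs.two a0 b1 a1).2.2.2, hV] at a4
      rcases (by grind : w ^ 2 = 1 ∨ w ^ 2 = -1) with h | h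
      · exact (a3 ⟨1, by simp, by simp [h]⟩).elim
      · exact (a3 ⟨i, Iso.norm_eq hn (i2 ▸ hR I hI), by rw [sq, i1, h]⟩).elim
  · have h0 : ((3 : ℕ) : F) ≠ 0 := cast_ne_zero_of_ne (p := p) (by rintro rfl; omega)
    refine ⟨fun y w a0 a1 a2 a3 a4 => ?_, fun f c _ _ _ a2 a3 _ => (a3 (norm_root (by omega) a2)).elim⟩
    obtain ⟨k1, k2⟩ := eq_three_iso hn h0 (hi (by omega)) fun t ht => by
      rw [frobq_apply, show p = 3 * (p / 3) + 1 by omega, pow_succ, pow_mul, ht, one_pow, one_mul]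
    obtain ⟨h, b1, b2, b3⟩ := D.threes h0 hN k1 a0 a1 (by simpa using a2 1)
    exact su_cg a0 (hN h b1) a3 a4 h0 b2 (k2 _ _ (hN h b1) a0 b2 a1 b3) b1.1
  · have h0 := five_ne (F := F) h5
    refine ⟨fun y w a0 a1 a2 a3 a4 => ?_, fun f c _ _ _ a2 a3 _ => (a3 (norm_root (by
      rw [dvd_succ_iff (by norm_num)]; omega) a2)).elim⟩
    obtain ⟨h, b1, b2, b3⟩ := D.xs.five ha hb hc hd G
    exact su_cg a0 (hN h b1) a3 a4 h0 b2 (eq_of_charpoly (squarefree_X_pow_sub_one h0)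
      ((aeval_X_pow_sub_one _ _).2 b2) ((aeval_X_pow_sub_one _ _).2 a1)
      ((su_five hn h0 h5 hV (hN h b1) b2 b3).trans
        (su_five hn h0 h5 hV a0 a1 (by simpa using a2 1)).symm)) b1.1

theorem xs_sp4 {Φ : Formed (RingHom.id F) V} (hΦ : Spu Φ) (hn : Φ.Nondeg) (D : D4 R 2) (hm : Xs.Mi R)
    (hR : ∀ x ∈ R, Iso Φ x.1) {p : ℕ} [hp : Fact p.Prime] [CharP F p] (hF : Nat.card F = p) {r : ℕ}
    [hr : Fact r.Prime] (hΩ : ∃ y, Iso Φ y ∧ y ^ r = 1 ∧ y ≠ 1) :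
    (∀ f, Iso Φ f → PE r f → Cg (Iso Φ) (Nm R) f) ↔ r = 2 ∨ (r = 5 ∧ orderOf (p : ZMod 5) = 4) := by
  have := D.fin
  have := D.xs.nt
  have hV := D.dim
  have h0 := D.xs.two
  constructor
  · intro H
    replace H := fun y a b c => (H y a (pe_of b c)).cj fun k h => h.injective hn
    refine or_iff_not_imp_left.2 fun h2 => ?_
    obtain ⟨y, a1, a2, a3⟩ := hΩ
    have a4 : ∀ c : F, y ≠ c • 1 := by
      rintro c rfl
      rcases mul_self_eq_one_iff.1 (a1.norm_eq hn) with rfl | rfl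
      · exact a3 (one_smul _ _)
      · rw [neg_one_smul, (hr.out.odd_of_ne_two h2).neg_one_pow] at a2
        exact neg_ne_self h0 1 a2
    have a5 : r ≠ p := by
      rintro rfl
      obtain ⟨y, b1, b2, b3⟩ := hΦ.exists_trans hn (fun _ => h0) (by omega) (p := r)
      exact D.not_tv h2 b2 b3 (H y b1 b2 (pe_char b2 (by rw [Ne, ← rk_eq_zero]; omega)).2.2)
    have a6 := cast_ne_zero_of_ne (F := F) a5
    rcases (D.neg h2 (H y a1 a2 a4) a2 a4).1 with rfl | rfl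
    · obtain ⟨y, b3, hy⟩ := hΦ.exists_tp hn (by omega) (c := -3) rfl
      obtain ⟨c1, c2, c3, c4⟩ := hy.bad (Or.inl ⟨rfl, rfl⟩) a6 D.four
      have := (D.neg h2 (H y b3 c1 c2) c1 c2).2.2.2 hm rfl rfl
      rw [c3, c4, hV] at this
      exact (a6 (by push_cast at this ⊢; linear_combination -this)).elim
    · refine ⟨rfl, by_contra fun h3 => ?_⟩
      obtain ⟨c, b1, b2⟩ := exists_tau (F := F) h0 h3
      obtain ⟨y, b3, hy⟩ := hΦ.exists_tp hn (by omega) (b2 _)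
      obtain ⟨c1, c2, -, c4⟩ := D.not_five hy b1 a6
      exact c4 (H y b3 c1 c2)
  obtain ⟨a, ha, b, hb, c, hc, d, hd, G⟩ := D.xs.exists_gam_minus hm D.cz D.cr
  rintro (rfl | ⟨rfl, h5⟩)
  · have key : ∀ f, Iso Φ f → f ^ 2 = 1 → f ≠ 1 → f ≠ -1 → kd f (X - C (-1)) = 2 := fun f a b c d => by
      have := (inv_kd h0 b).1
      have := kd_lt (y := f) (c := 1) (by simpa using c)
      have := kd_lt (y := f) (c := -1) (by simpa using d)
      obtain ⟨k, hk⟩ := hΦ.even_kd hn h0 a b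
      omega
    have b2 : a.1 ^ 2 = 1 := (pow_two _).trans G.aa
    have b3 : ∀ t : F, a.1 ≠ t • 1 := fun t ht => D.xs.not_comm G.ba (Units.ext (by simp [ht]))
    refine (forall_two_id hn h0 fun _ h => h).2 ⟨fun f a1 a2 a3 a4 => hΦ.cg hn a1 (hR a ha) (n := 2) h0
      b2 (eq_of_inv h0 b2 a2 ((key _ (hR a ha) b2 (by simpa using b3 1) (by simpa using b3 (-1))).trans
        (key f a1 a2 a3 a4).symm)) (nm_of_mem ha), fun f a1 a2 => hΦ.cg_four hn h0 a1
      (hR _ (mul_mem ha hb)) a2 ?_ (nm_of_mem (mul_mem ha hb))⟩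
    simp only [pow_two, Units.val_mul, ring_r F (End F V), G.r]
  · rw [forall_scale_cop hn (by omega) (fun _ h => h) (fun _ h _ => h) (N := 2)
      (fun z h => by simpa [sq] using h) (by norm_num) (Cg.smul Nm.smul)]
    intro y a0 a1 a2
    obtain ⟨h, b1, b2, b3⟩ := D.xs.five ha hb hc hd G
    exact hΦ.cg hn a0 (sim_one.1 (b1.2 _ _ hΦ hn hR)) (five_ne h5) b2
      (eq_five (five_ne h5) (hF ▸ h5) hV b2 b3 a1 a2) b1.1

omit [Finite F] in
theorem two_charpoly (hV : finrank F V = 2) (h : ∀ c : F, f ≠ c • 1) {b : F[X]} (hb : b.Monic)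
    (h1 : b.natDegree = 2) (h2 : aeval f b = 0) : f.charpoly = b := by
  have : Nontrivial V := (finrank_pos_iff (R := F)).1 (by omega)
  have hi := Algebra.IsIntegral.isIntegral (R := F) f
  have h3 := (minpoly.two_le_natDegree_iff hi).2 fun ⟨c, hc⟩ =>
    h c (by rw [← hc, Algebra.algebraMap_eq_smul_one])
  rw [eq_of_monic_of_dvd_of_natDegree_le (minpoly.monic hi) hb (minpoly.dvd F f h2) (by omega)]
  exact eq_of_monic_of_dvd_of_natDegree_le (minpoly.monic hi) f.charpoly_monic f.minpoly_dvd_charpoly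
    (by rw [f.charpoly_natDegree]; omega)

omit [Finite F] in
theorem ch_two (hV : finrank F V = 2) (f : End F V) : ∃ a : F, f * f = a • f - LinearMap.det f • 1 := by
  have h1 := f.aeval_self_charpoly
  rw [f.charpoly_monic.as_sum, f.charpoly_natDegree, hV] at h1
  simp [Finset.sum_range_succ, Algebra.algebraMap_eq_smul_one] at h1
  exact ⟨-f.charpoly.coeff 1, by
    rw [f.det_eq_sign_charpoly_coeff, hV, ← pow_two, eq_neg_of_add_eq_zero_left h1]; module⟩

omit [Finite F] in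
theorem comm_two (hV : finrank F V = 2) (h : ∀ c : F, f ≠ c • 1) {a b : End F V} (ha : Commute a f)
    (hb : Commute b f) : Commute a b := by
  obtain ⟨v, hv⟩ : ∃ v, LinearIndependent F ![v, f v] := by
    by_contra! hc
    obtain ⟨c, hc⟩ := f.exists_eq_smul_id_of_forall_notLinearIndependent hc
    exact h c hc
  let B := basisOfLinearIndependentOfCardEqFinrank hv (by simp [hV])
  have key : ∀ a : End F V, Commute a f → ∃ s t : F, a = s • 1 + t • f := fun a ha => by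
    have h1 := B.sum_repr (a v)
    simp only [Fin.sum_univ_two, B, coe_basisOfLinearIndependentOfCardEqFinrank] at h1
    refine ⟨B.repr (a v) 0, B.repr (a v) 1, B.ext fun i => ?_⟩
    fin_cases i <;> simp only [B, coe_basisOfLinearIndependentOfCardEqFinrank]
    · simpa using h1.symm
    · simpa [← End.mul_apply a f, ha.eq] using congrArg f h1.symm
  obtain ⟨s, t, rfl⟩ := key a ha
  exact ((Commute.one_left b).smul_left s).add_left (hb.symm.smul_left t)

omit [Finite F] in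
theorem xs_q8 (hV : finrank F V = 2) (h2 : (2 : F) ≠ 0) (e : R ≃* QuaternionGroup 2) :
    Xs R ∧ ∃ x ∈ R, ∃ y ∈ R, x.1 * x.1 = -1 ∧ y.1 * y.1 = -1 ∧ y.1 * x.1 = -(x.1 * y.1) := by
  have : Nontrivial V := (finrank_pos_iff (R := F)).1 (by omega)
  let φ : QuaternionGroup 2 →* End F V := (Units.coeHom _).comp (R.subtype.comp e.symm.toMonoidHom)
  have h0 : Function.Injective φ := Units.val_injective.comp (Subtype.val_injective.comp e.symm.injective)
  have h1 : ∀ m : End F V, (∀ x ∈ R, m * x.1 = x.1 * m) → ∃ c : F, m = c • 1 := fun m hm => by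
    by_contra! hc
    exact absurd ((commute_map_iff h0).1 (comm_two hV hc (a := φ (.a 1)) (b := φ (.xa 0))
      (hm _ (e.symm _).2).symm (hm _ (e.symm _).2).symm)).eq (by decide)
  have h3 : ∀ x ∈ R, ∃ g, x.1 = φ g := fun x hx => ⟨e ⟨x, hx⟩, by simp [φ]⟩
  have h4 : φ (.a 2) = -1 := by
    obtain ⟨c, hc⟩ := h1 (φ (.a 2)) fun x hx => by
      obtain ⟨g, hg⟩ := h3 x hx
      rw [hg, ← map_mul, ← map_mul, (by decide : ∀ g : QuaternionGroup 2, .a 2 * g = g * .a 2)]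
    have h5 : φ (.a 2) * φ (.a 2) = 1 := by rw [← map_mul, ← map_one φ]; rfl
    rw [hc, smul_mul_smul_comm, one_mul] at h5
    have h6 : c * c = 1 := smul_left_injective F one_ne_zero (h5.trans (one_smul F _).symm)
    rcases mul_self_eq_one_iff.1 h6 with rfl | rfl
    · exact absurd (h0 (hc.trans ((one_smul _ _).trans (map_one φ).symm))) (by decide)
    · simp [hc]
  refine ⟨⟨h2, this, fun x hx => ?_, h1⟩, _, (e.symm (.a 1)).2, _, (e.symm (.xa 0)).2, ?_, ?_, ?_⟩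
  · obtain ⟨g, hg⟩ := h3 x hx
    rw [hg, ← map_mul, ← h4, ← map_one φ]
    exact ((by decide : ∀ g : QuaternionGroup 2, g * g = 1 ∨ g * g = .a 2) g).imp (congrArg φ)
      (congrArg φ)
  · exact (map_mul φ (.a 1) (.a 1)).symm.trans h4
  · exact (map_mul φ (.xa 0) (.xa 0)).symm.trans h4
  · show φ (.xa 0) * φ (.a 1) = -(φ (.a 1) * φ (.xa 0))
    rw [← neg_one_mul, ← h4, ← map_mul, ← map_mul, ← map_mul]; rfl

theorem xs_sl2 (hV : finrank F V = 2) (h2 : (2 : F) ≠ 0) (h3 : ((3 : ℕ) : F) ≠ 0)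
    (e : R ≃* QuaternionGroup 2) {r : ℕ} [hr : Fact r.Prime]
    (hΩ : ∃ y : End F V, LinearMap.det y = 1 ∧ y ^ r = 1 ∧ y ≠ 1) :
    (∀ f : End F V, LinearMap.det f = 1 → PE r f → Cj (Nm R) f) ↔ r = 2 ∨ r = 3 := by
  obtain ⟨H, x, hx, y, hy, a1, a2, a3⟩ := xs_q8 hV h2 e
  have := H.nt
  have := Finite.of_equiv _ e.toEquiv.symm
  have hR : Nat.card R = 8 := by
    rw [Nat.card_congr e.toEquiv, Nat.card_eq_fintype_card, QuaternionGroup.card]
  constructor
  · intro K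
    refine or_iff_not_imp_left.2 fun h4 => ?_
    obtain ⟨f, b1, b2, b3⟩ := hΩ
    have b4 := ne_smul_of_det ((Nat.coprime_primes hr.out Nat.prime_two).2 h4) hV b1 b2 b3
    obtain ⟨g, c1, c2, c3, -⟩ := (K f b1 (pe_of b2 b4)).unit b2 b4
    have d1 := fix_count c1 (r := r) (by simp [c2])
    have d2 := Subgroup.card_dvd_of_le (inf_le_left : R ⊓ Subgroup.centralizer {g} ≤ R)
    have d3 := H.card_ne c3
    have d4 : Nat.card (R ⊓ Subgroup.centralizer {g} : Subgroup _) ≠ 1 := fun h =>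
      neg_ne_self h2 1 (congrArg Units.val (Subgroup.mem_bot.1 ((Subgroup.card_eq_one.1 h).le
        (show -1 ∈ _ from ⟨(Units.ext a1 : x * x = -1) ▸ mul_mem hx hx,
          Subgroup.mem_centralizer_singleton_iff.2 (by simp)⟩))))
    rw [hR] at d1 d2 d3
    generalize Nat.card (R ⊓ Subgroup.centralizer {g} : Subgroup _) = m at *
    have d5 := Nat.le_of_dvd (by norm_num) d2
    have d6 := (Nat.modEq_iff_dvd' d5).1 d1.symm
    have d7 := Nat.le_of_dvd (by omega) d6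
    have d8 := hr.out.eq_two_or_odd.resolve_left h4
    have d9 := hr.out.one_lt
    have : r ≤ 8 := by omega
    interval_cases m <;> interval_cases r <;> omega
  rintro (rfl | rfl)
  · rintro f b1 ⟨⟨c, b2⟩, b3⟩
    have b4 := two_charpoly hV b3 (monic_X_pow_sub_C c two_ne_zero) natDegree_X_pow_sub_C
      ((aeval_X_pow_sub_C _ _ _).2 b2)
    obtain rfl : c = -1 := by
      rw [f.det_eq_sign_charpoly_coeff, hV, b4] at b1
      simp at b1
      linear_combination -b1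
    have b5 := (aeval_X_pow_sub_C x.1 2 (-1)).2 (by simp [sq, a1])
    exact ⟨_, nm_of_mem hx, eq_of_charpoly (squarefree_X_pow_sub_C h2 (by simp)) b5
      ((aeval_X_pow_sub_C _ _ _).2 b2) ((two_charpoly hV (fun t ht => H.not_comm a3
        (Units.ext (by simp [ht]))) (monic_X_pow_sub_C _ two_ne_zero) natDegree_X_pow_sub_C b5).trans b4.symm)⟩
  have hP := Cj.smul (Nm.smul (R := R))
  refine (forall_pe_iff hP).2 ⟨fun f _ b1 b2 _ => ?_, fun f c a0 b1 b2 b3 => ?_⟩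
  swap
  · obtain ⟨-, k, b1, -⟩ := (cases_pow (ne_zero_of_pow_eq (by simp [b3]) a0 b1) b1).resolve_left
      fun ⟨w, h, _⟩ => b2 ⟨w, h⟩
    omega
  have b3 : LinearMap.det f ^ 3 = 1 := by rw [← map_pow, b1, map_one]
  have b4 : LinearMap.det f ≠ 0 := by rintro h; simp [h] at b3
  refine hP _ f b4 ?_
  have b5 : (LinearMap.det f • f) ^ 3 = 1 := by rw [_root_.smul_pow, b1, b3, one_smul]
  have b6 : ∀ c : F, LinearMap.det f • f ≠ c • 1 := fun c h => b2 ((LinearMap.det f)⁻¹ * c) (by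
    rw [mul_smul, ← h, smul_smul, inv_mul_cancel₀ b4, one_smul])
  obtain ⟨t, ht⟩ := ch_two hV (LinearMap.det f • f)
  rw [LinearMap.det_smul, hV, ← pow_succ, b3, one_smul] at ht
  generalize LinearMap.det f • f = g at *
  have b7 : (t ^ 2 - 1) • g = (t + 1) • 1 := by
    rw [pow_succ, pow_two, ht, sub_mul, smul_mul_assoc, ht] at b5
    rw [add_smul, one_smul]; nth_rw 2 [← b5]; module
  have b8 : t ^ 2 - 1 = 0 := by_contra fun h => b6 ((t ^ 2 - 1)⁻¹ * (t + 1)) (by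
    rw [mul_smul, ← b7, smul_smul, inv_mul_cancel₀ h, one_smul])
  obtain rfl : t = -1 := by
    rw [b8, zero_smul, eq_comm, smul_eq_zero] at b7
    linear_combination b7.resolve_right one_ne_zero
  obtain ⟨w, c1, c2, c3⟩ := H.omega hx hy a1 a2 a3
  have c4 := (c3 1 (Commute.one_left _) (Commute.one_left _)).2
  have key : ∀ g : End F V, (∀ c : F, g ≠ c • 1) → g * g = -1 - g → aeval g (cyclotomic 3 F) = 0 ∧
      g.charpoly = cyclotomic 3 F := fun g a b =>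
    have h : aeval g (cyclotomic 3 F) = 0 := by simp [cyclotomic_three, pow_two, b]
    ⟨h, two_charpoly hV a (cyclotomic.monic 3 F) (natDegree_cyclotomic 3 F) h⟩
  have c5 := key w (fun s hs => by
    rw [hs, smul_mul_smul_comm, one_mul] at c2
    have c6 : s * s = -1 - s := smul_left_injective F one_ne_zero (c2.trans (by module))
    simp [hs, hV] at c4
    norm_num at h3
    field_simp at c4
    grind) c2
  have c6 := key g b6 (by rw [ht]; module)
  exact ⟨w, c1.1, eq_of_charpoly (pol_cyc h3 (by norm_num)).sqf c5.1 c6.1 (c5.2.trans c6.2.symm)⟩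

end Cfsg.Agent.Elu
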