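import Cfsg.Agent.Elu.XsCrit
import Cfsg.Agent.Asch.SU3

/-! Normalisers of extraspecial groups of order `27` in dimension `3`: the generators `X3`, the
normalising elements `X3.diag`, `X3.swap` and the criteria `xs_sl3`, `xs_su3`. -/

set_option autoImplicit false
set_option linter.unusedSectionVars false

namespace Cfsg.Agent.Elu

open Module Polynomial Cfsg.Agent.Classical Cfsg.Agent.Geom Cfsg.Agent.Geom.Formed

universe u

theorem comm_of_dvd_nine {G : Type*} [Group G] (h : Nat.card G ∣ 3 ^ 2) (a b : G) : a * b = b * a := by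
  have := Fact.mk Nat.prime_three
  have : Finite G := Nat.finite_of_card_ne_zero (ne_zero_of_dvd_ne_zero (by norm_num) h)
  obtain ⟨k, hk, h⟩ := (Nat.dvd_prime_pow Nat.prime_three).1 h
  interval_cases k
  · exact (Nat.card_eq_one_iff_unique.1 h).1.elim _ _
  · exact (isCyclic_of_prime_card (p := 3) h).isMulCommutative.is_comm.comm a b
  · exact (IsPGroup.isMulCommutative_of_card_eq_prime_sq h).is_comm.comm a b

theorem dvd_nine {n : ℕ} (h : n ∣ 27) (h' : n ≠ 27) : n ∣ 3 ^ 2 := by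
  have := Nat.le_of_dvd (by norm_num) h
  interval_cases n <;> omega

variable {F : Type*} [Field F] [Finite F] {V : Type u} [AddCommGroup V] [Module F V]
  [FiniteDimensional F V] {R : Subgroup (End F V)ˣ} {f g : End F V} {x y z : (End F V)ˣ} {w : F}

/-- Generators of an extraspecial group of order `27`. -/
structure X3 (R : Subgroup (End F V)ˣ) (x y z : (End F V)ˣ) (w : F) : Prop where
  dim : finrank F V = 3
  three : ((3 : ℕ) : F) ≠ 0
  ord : orderOf (Nat.card F : ZMod 3) = 1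
  card : Nat.card R = 27
  gen : Subgroup.closure {x, y} = R
  hz : z ∈ R
  zw : z.1 = w • 1
  xx : x.1 * (x.1 * x.1) = 1
  yy : y.1 * (y.1 * y.1) = 1
  yx : y.1 * x.1 = w • (x.1 * y.1)
  ww : w ^ 2 + w + 1 = 0

theorem exists_x3 (hV : finrank F V = 3) (h3 : ((3 : ℕ) : F) ≠ 0)
    (hi : orderOf (Nat.card F : ZMod 3) = 1) (hR : Nat.card R = 27) (he : ∀ x : R, x ^ 3 = 1)
    (hc : ¬ ∀ x y : R, x * y = y * x) : ∃ x y z w, X3 R x y z w := by
  classical
  have := Fact.mk Nat.prime_three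
  have : Finite R := Nat.finite_of_card_ne_zero (by omega)
  have : Nontrivial R := Finite.one_lt_card_iff_nontrivial.1 (by omega)
  push Not at hc
  obtain ⟨y, x, hc⟩ := hc
  have h1 : y * x * (x * y)⁻¹ ∈ Subgroup.center R := by
    have a1 := (IsPGroup.of_card (p := 3) (n := 3) hR).center_nontrivial
    have a2 := Subgroup.card_eq_card_quotient_mul_card_subgroup (Subgroup.center R)
    have a3 := Finite.one_lt_card (α := Subgroup.center R)
    rw [← QuotientGroup.eq_one_iff, QuotientGroup.mk_mul, QuotientGroup.mk_inv, QuotientGroup.mk_mul,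
      QuotientGroup.mk_mul, comm_of_dvd_nine (dvd_nine ⟨_, hR ▸ a2⟩ fun h => by rw [h] at a2; omega)
      (y : R ⧸ Subgroup.center R) x, mul_inv_cancel]
  obtain ⟨z, hz⟩ : ∃ z, z = y * x * (x * y)⁻¹ := ⟨_, rfl⟩
  rw [← hz] at h1
  have h2 : y.1.1 * x.1.1 = z.1.1 * (x.1.1 * y.1.1) :=
    congrArg (·.1.1) (eq_mul_inv_iff_mul_eq.1 hz).symm
  have h4 : ∀ x : R, x.1.1 ^ 3 = 1 := fun x => congrArg (·.1.1) (he x)
  obtain ⟨T, hT⟩ := dg_of_pow h3 hi (h4 z)
  obtain ⟨w, h5, h6⟩ : ∃ w ∈ T, w ≠ 1 := by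
    by_contra! h5
    refine hc (mul_inv_eq_one.1 (hz ▸ Subtype.ext (Units.ext ((eq_smul_one_of_forall (c := 1)
      fun a ha => ?_).trans (one_smul _ _)))))
    obtain ⟨t, ht, rfl⟩ := Multiset.mem_map.1 (hT ▸ ha)
    rw [h5 t ht]
  have h7 := hT.pow_iff.1 (h4 z) w h5
  have inv : ∀ x : R, Inv x.1.1 (kerA z.1.1 (X - C w)) := fun x v hv => by
    rw [mem_kerA_X_sub_C] at hv ⊢
    rw [← map_smul, ← hv]
    exact (congrArg (·.1.1 v) (Subgroup.mem_center_iff.1 h1 x)).symm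
  have det : ∀ x : R, LinearMap.det (inv x).res ≠ 0 := fun x h => by
    have := congrArg LinearMap.det ((aeval_X_pow_sub_one _ 3).1 (aeval_restrict_eq_zero (inv x)
      ((aeval_X_pow_sub_one _ 3).2 (h4 x))))
    simp [h] at this
  have h8 := congrArg LinearMap.det (show (inv y).res * (inv x).res = w • ((inv x).res * (inv y).res) from
    LinearMap.ext fun v => Subtype.ext ((congrArg (· v.1) h2).trans
      (mem_kerA_X_sub_C.1 (inv x _ (inv y _ v.2)))))
  rw [LinearMap.det_smul, map_mul, map_mul, mul_comm, eq_comm,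
    mul_eq_right₀ (mul_ne_zero (det x) (det y))] at h8
  have h9 := (orderOf_eq_prime h7 h6) ▸ orderOf_dvd_of_pow_eq_one h8
  have h10 : 0 < kd z.1.1 (X - C w) := by rw [hT.kd]; exact Multiset.count_pos.2 h5
  have h11 : z.1.1 = w • 1 := by_contra fun h => by
    have := kd_lt h
    have := Nat.le_of_dvd h10 h9
    omega
  refine ⟨x, y, z, w, hV, h3, hi, hR, ?_, z.2, h11, by simpa [pow_succ'] using h4 x,
    by simpa [pow_succ'] using h4 y, by simpa [h11] using h2, by grind⟩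
  have h12 : Subgroup.closure {x.1, y.1} ≤ R := by simp [Set.insert_subset_iff]
  refine Subgroup.eq_of_le_of_card_ge h12 (hR.trans_le (Eq.ge (by_contra fun h => hc ?_)))
  have h13 := comm_of_dvd_nine (dvd_nine (hR ▸ Subgroup.card_dvd_of_le h12) h)
    ⟨y.1, Subgroup.subset_closure (by simp)⟩ ⟨x.1, Subgroup.subset_closure (by simp)⟩
  exact Subtype.ext (congrArg Subtype.val h13 :)

theorem zmod_three : ∀ a b c k : ZMod 3, k ≠ 0 → (∀ t, ({a, b, c} : Multiset (ZMod 3)).count (k + t) =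
    ({a, b, c} : Multiset (ZMod 3)).count t) → ({a, b, c} : Multiset (ZMod 3)) = {0, 1, 2} := by
  decide

theorem zmod_three' : ∀ a b c : ZMod 3, ({a, b, c} : Multiset (ZMod 3)) = {0, 1, 2} ∨
    ∃ i j, ({a, b, c} : Multiset (ZMod 3)) = {i, i, i + j} := by
  decide

theorem dg_three (hV : finrank F V = 3) {χ : AddChar (ZMod 3) F} (b1 : Function.Injective χ)
    (b2 : ∀ t, t ^ 3 = 1 ↔ ∃ a, χ a = t) (h3 : ((3 : ℕ) : F) ≠ 0)
    (hi : orderOf (Nat.card F : ZMod 3) = 1) (hx : x.1 * (x.1 * x.1) = 1)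
    (h : y.1 * x.1 = w • (x.1 * y.1)) (hw : w ^ 2 + w + 1 = 0) :
    Dg x.1 (({0, 1, 2} : Multiset (ZMod 3)).map χ) := by
  have := Fact.mk Nat.prime_three
  obtain ⟨A, hA⟩ := exists_dg_chi (y := x.1) h3 hi b2 (by simpa [pow_succ'] using hx)
  obtain ⟨a, b, c, rfl⟩ := Multiset.card_eq_three.1 (by simpa [hV] using hA.card)
  obtain ⟨k, rfl⟩ := (b2 w).1 (by grind)
  have h1 : elemDiv x.1 = elemDiv (χ k • x.1) := elemDiv_congr
    (LinearMap.GeneralLinearGroup.toLinearEquiv y) fun v => congr($h v)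
  rwa [zmod_three a b c k (by rintro rfl; simp at hw; exact h3 (by linear_combination hw)) fun t => by
      rw [← hA.kd_chi b1 b2, ← hA.kd_chi b1 b2, χ.map_add_eq_mul, kd_of_eq h1,
        kd_smul (by rintro h; simp [h] at hw)]] at hA

theorem iso_iff_adj {σ : F →+* F} {Φ : Formed σ V} (hΦ : Spu Φ) (hn : Φ.Nondeg) :
    Iso Φ f ↔ adj hn f * f = 1 :=
  hΦ.iso.trans ⟨fun h => LinearMap.ext fun u => hn.ext fun v => by rw [End.mul_apply, B_adj, h]; rfl,
    fun h u v => by rw [← B_adj hn, ← End.mul_apply, h]; rfl⟩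

theorem cube_r {A : Type*} [Ring A] {a : A} (h : a * (a * a) = 1) :
    a * (a * a) = 1 ∧ ∀ t, a * (a * (a * t)) = t :=
  ⟨h, fun t => by rw [← mul_assoc a a t, ← mul_assoc, h, one_mul]⟩

namespace X3

variable (H : X3 R x y z w)
include H

theorem hx : x ∈ R := H.gen.le (Subgroup.subset_closure (by simp))

theorem hy : y ∈ R := H.gen.le (Subgroup.subset_closure (by simp))

theorem r : (x.1 * (x.1 * x.1) = 1 ∧ ∀ t, x.1 * (x.1 * (x.1 * t)) = t) ∧
    (y.1 * (y.1 * y.1) = 1 ∧ ∀ t, y.1 * (y.1 * (y.1 * t)) = t) ∧ y.1 * x.1 = w • (x.1 * y.1) ∧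
    ∀ t, y.1 * (x.1 * t) = w • (x.1 * (y.1 * t)) :=
  ⟨cube_r H.xx, cube_r H.yy, H.yx, fun t => by rw [← mul_assoc, H.yx, smul_mul_assoc, mul_assoc]⟩

theorem k : ∃ k : F, 3 * k = 1 ∧ ∀ σ : F →+* F, σ k = k :=
  ⟨3⁻¹, mul_inv_cancel₀ (by exact_mod_cast H.three), fun σ => by simp only [map_inv₀, map_ofNat]⟩

theorem w_ne : w ≠ 1 := by
  rintro rfl
  exact H.three (by have := H.ww; push_cast; linear_combination this)

theorem dg {χ : AddChar (ZMod 3) F} (b1 : Function.Injective χ) (b2 : ∀ t, t ^ 3 = 1 ↔ ∃ a, χ a = t) :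
    Dg x.1 (({0, 1, 2} : Multiset (ZMod 3)).map χ) :=
  dg_three H.dim b1 b2 H.three H.ord H.xx H.yx H.ww

theorem kd_one : kd x.1 (X - C 1) = 1 := by
  have := Fact.mk Nat.prime_three
  obtain ⟨χ, b1, b2⟩ := exists_chi H.ord
  rw [← χ.map_zero_eq_one, (H.dg b1 b2).kd_chi b1 b2]; rfl

theorem det : ∀ g ∈ R, LinearMap.det g.1 = 1 := by
  have := Fact.mk Nat.prime_three
  obtain ⟨χ, b1, b2⟩ := exists_chi H.ord
  have hw := H.ww
  intro g hg
  rw [← H.gen] at hg
  induction hg using Subgroup.closure_induction with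
  | mem a ha =>
    rcases ha with rfl | rfl
    · rw [(H.dg b1 b2).det, chi_sum]; exact χ.map_zero_eq_one
    · rw [(dg_three (y := x) (w := w ^ 2) H.dim b1 b2 H.three H.ord H.yy (by
        rw [H.yx, smul_smul]; match_scalars; grind) (by grind)).det, chi_sum]
      exact χ.map_zero_eq_one
  | one => simp
  | mul a b _ _ c d => simp [c, d]
  | inv a _ c => rw [← one_mul (LinearMap.det _), ← c, ← map_mul, c]; simp

theorem schur (m : End F V) (h1 : m * x.1 = x.1 * m) (h2 : m * y.1 = y.1 * m) : ∃ c : F, m = c • 1 := by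
  obtain ⟨k, hk, -⟩ := H.k
  obtain ⟨⟨v, hv⟩, -, h3⟩ := finrank_eq_one_iff'.1 H.kd_one
  obtain ⟨c, hc⟩ := h3 ⟨m v, mem_fixA.2 (by rw [← End.mul_apply, ← h1, End.mul_apply, mem_fixA.1 hv])⟩
  have h4 : m * (1 + x.1 + x.1 * x.1) = c • (1 + x.1 + x.1 * x.1) := LinearMap.ext fun u => by
    obtain ⟨d, hd⟩ := h3 ⟨(1 + x.1 + x.1 * x.1) u, mem_fixA.2 (by
      rw [← End.mul_apply]; congr 1; simp only [ring_r F (End F V), H.r]; abel)⟩
    have a1 : d • v = (1 + x.1 + x.1 * x.1) u := congrArg Subtype.val hd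
    have a2 : c • v = m v := congrArg Subtype.val hc
    rw [End.mul_apply, LinearMap.smul_apply, ← a1, map_smul, ← a2, smul_comm]
  have h5 : k • ((1 + x.1 + x.1 * x.1) + y.1 * ((1 + x.1 + x.1 * x.1) * (y.1 * y.1)) +
      y.1 * (y.1 * ((1 + x.1 + x.1 * x.1) * y.1))) = 1 := by
    have := H.ww
    simp only [ring_r F (End F V), H.r]
    match_scalars <;> grind
  refine ⟨c, ?_⟩
  generalize 1 + x.1 + x.1 * x.1 = E at h4 h5
  rw [← mul_one m, ← h5]
  simp only [mul_add, mul_smul_comm, (cm_r h2).2, ← mul_assoc m E, h4, smul_mul_assoc]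
  module

theorem nu {f f' : End F V} (h0 : f * f' = 1) (h1 : ∃ g ∈ R, f * x.1 = g.1 * f)
    (h2 : ∃ g ∈ R, f * y.1 = g.1 * f) (h3 : ∀ (σ : F →+* F) (Φ : Formed σ V) (hn : Φ.Nondeg),
      adj hn x.1 = x.1 * x.1 → adj hn y.1 = y.1 * y.1 → σ w = w ^ 2 → adj hn f = f') : Nu R 1 f := by
  have : Nontrivial V := (finrank_pos_iff (R := F)).1 (by rw [H.dim]; omega)
  have h4 := mul_eq_one_comm.1 h0
  refine ⟨⟨⟨f, f', h0, h4⟩, fun g hg => ?_, rfl⟩, fun σ Φ a b c => sim_one.2 ((iso_iff_adj a b).2 ?_)⟩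
  · generalize hu : (⟨f, f', h0, h4⟩ : (End F V)ˣ) = u
    obtain rfl : u.1 = f := by rw [← hu]
    have k : ∀ x : (End F V)ˣ, (∃ g ∈ R, u.1 * x.1 = g.1 * u.1) → u * x * u⁻¹ ∈ R := fun x ⟨g, a, b⟩ => by
      rwa [show u * x = g * u from Units.ext b, mul_inv_cancel_right]
    rw [← H.gen] at hg
    induction hg using Subgroup.closure_induction with
    | mem a ha => rcases ha with rfl | rfl; exacts [k _ h1, k _ h2]
    | one => simp
    | mul a b _ _ c d => simpa [mul_assoc] using mul_mem c d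
    | inv a _ c => simpa [mul_assoc] using inv_mem c
  have k : ∀ x ∈ R, x.1 * (x.1 * x.1) = 1 → adj b x.1 = x.1 * x.1 := fun x hx h => by
    rw [← mul_one (adj b x.1), ← h, ← mul_assoc, (iso_iff_adj a b).1 (c x hx), one_mul]
  have h5 := Iso.norm_eq b (H.zw ▸ c z H.hz)
  have := H.ww
  rw [h3 σ Φ b (k x H.hx H.xx) (k y H.hy H.yy) (by grind), h4]

theorem diag {t : F} (ht : t = w ∨ t = w ^ 2) : ∃ u, Nu R 1 u ∧ (u - 1) * (u - t • 1) = 0 ∧
    kd u (X - C t) = 1 := by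
  obtain ⟨k, hk, hk'⟩ := H.k
  have hw := H.ww
  have h1 := H.w_ne
  refine ⟨1 + (k * (t - 1)) • (1 + x.1 + x.1 * x.1),
    H.nu (f' := 1 + (k * (t ^ 2 - 1)) • (1 + x.1 + x.1 * x.1)) ?_ ⟨x, H.hx, ?_⟩ ?_ ?_, ?_, ?_⟩
  · simp only [ring_r F (End F V), H.r]; match_scalars <;> grind
  · simp only [ring_r F (End F V), H.r]
  · rcases ht with rfl | rfl
    · refine ⟨z * x * x * y, mul_mem (mul_mem (mul_mem H.hz H.hx) H.hx) H.hy, ?_⟩
      simp only [Units.val_mul, H.zw, ring_r F (End F V), H.r]; match_scalars <;> grind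
    · refine ⟨z * z * x * y, mul_mem (mul_mem (mul_mem H.hz H.hz) H.hx) H.hy, ?_⟩
      simp only [Units.val_mul, H.zw, ring_r F (End F V), H.r]; match_scalars <;> grind
  · intro σ Φ hn a b c
    have : σ t = t ^ 2 := by rcases ht with rfl | rfl <;> simp [c]
    simp only [map_add, adj_smul, adj_mul, adj_one, a, map_mul, map_sub, map_one, hk', this,
      ring_r F (End F V), H.r]
    module
  · simp only [ring_r F (End F V), H.r]; match_scalars <;> grind
  · rw [← H.kd_one]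
    refine congrArg (fun U : Submodule F V => finrank F U) (Submodule.ext fun v => ?_)
    refine mem_kerA_X_sub_C.trans (Iff.trans ⟨fun h => ?_, fun h => ?_⟩ mem_fixA.symm)
    · have h2 : k • (1 + x.1 + x.1 * x.1) v = v := smul_right_injective V (show t - 1 ≠ 0 by grind) (by
        simp only [LinearMap.add_apply, LinearMap.smul_apply, End.one_apply] at h ⊢
        rw [sub_smul t 1 v, ← h]; module)
      rw [← h2, map_smul, ← End.mul_apply]
      congr 2
      simp only [ring_r F (End F V), H.r]; abel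
    · simp only [LinearMap.add_apply, LinearMap.smul_apply, End.one_apply, End.mul_apply, h]
      match_scalars; grind

theorem swap : ∃ s, Nu R 1 s ∧ s ^ 2 = 1 ∧ ∀ c : F, s ≠ c • 1 := by
  obtain ⟨k, hk, hk'⟩ := H.k
  have hw := H.ww
  obtain ⟨s, hs⟩ : ∃ s, s = k • ((1 + x.1 + x.1 * x.1) + y.1 * ((1 + x.1 + x.1 * x.1) * y.1) +
    y.1 * (y.1 * ((1 + x.1 + x.1 * x.1) * (y.1 * y.1)))) := ⟨_, rfl⟩
  have h1 : s * s = 1 := by simp only [hs, ring_r F (End F V), H.r]; match_scalars <;> grind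
  have h2 : s * x.1 = (x * x).1 * s := by
    simp only [hs, Units.val_mul, ring_r F (End F V), H.r]; match_scalars <;> grind
  refine ⟨s, H.nu h1 ⟨_, mul_mem H.hx H.hx, h2⟩ ⟨_, mul_mem H.hy H.hy, ?_⟩ fun σ Φ hn a b c => ?_,
    (sq s).trans h1, ?_⟩
  · simp only [hs, Units.val_mul, ring_r F (End F V), H.r]; match_scalars <;> grind
  · simp only [hs, map_add, adj_smul, adj_mul, adj_one, a, b, hk', ring_r F (End F V), H.r]
    match_scalars <;> grind
  · intro c hc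
    have h3 := H.kd_one
    have h4 : x * x = x := Units.ext (by
      have := congrArg (s * ·) h2
      simp only [hc, smul_mul_assoc, mul_smul_comm, one_mul, mul_one, smul_smul] at this h1
      rw [← one_mul x.1, ← one_mul (x * x).1, ← h1, smul_mul_assoc, smul_mul_assoc, one_mul, one_mul, this])
    rw [mul_eq_left.1 h4, kd_eq_finrank_iff.2 (by simp), H.dim] at h3
    omega

theorem neg {r : ℕ} [hr : Fact r.Prime] (h : Cj (Nm R) f) (h1 : f ^ r = 1) (hn : ∀ c : F, f ≠ c • 1) :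
    r = 2 ∨ r = 3 := by
  have : Finite R := Nat.finite_of_card_ne_zero (by rw [H.card]; omega)
  have : Nontrivial V := (finrank_pos_iff (R := F)).1 (by rw [H.dim]; omega)
  obtain ⟨g, a1, a2, a3, -⟩ := h.unit h1 hn
  have b1 := fix_count a1 (r := r) (by simp [a2])
  have b2 := Subgroup.card_dvd_of_le (inf_le_left : R ⊓ Subgroup.centralizer {g} ≤ R)
  have b3 : Nat.card (R ⊓ Subgroup.centralizer {g} : Subgroup _) ≠ 27 := fun h => by
    have h2 := Subgroup.eq_of_le_of_card_ge (inf_le_left : R ⊓ Subgroup.centralizer {g} ≤ R)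
      (H.card.trans h.symm).le
    have h3 : ∀ a ∈ R, g.1 * a.1 = a.1 * g.1 := fun a ha =>
      congrArg Units.val ((h2.ge ha).2 g rfl)
    exact (H.schur _ (h3 x H.hx) (h3 y H.hy)).elim a3
  have b4 : Nat.card (R ⊓ Subgroup.centralizer {g} : Subgroup _) ≠ 1 := fun h => by
    have h2 : z = 1 := (Subgroup.card_eq_one.1 h).le ⟨H.hz, by
      rintro _ rfl; exact Units.ext (by simp [H.zw])⟩
    exact H.w_ne (smul_left_injective F (one_ne_zero (α := End F V)) (by
      simp only [← H.zw, h2, one_smul, Units.val_one]))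
  rw [H.card] at b1 b2
  obtain ⟨k, hk, b5⟩ := (Nat.dvd_prime_pow Nat.prime_three).1 (dvd_nine b2 b3)
  have b6 : r ∣ 2 ^ 3 * 3 ^ 2 := by
    rw [b5] at b1 b4
    have := (Nat.modEq_iff_dvd' (by interval_cases k <;> norm_num)).1 b1.symm
    interval_cases k
    exacts [(b4 rfl).elim, this.trans (by norm_num), this.trans (by norm_num)]
  exact ((Nat.Prime.dvd_mul hr.out).1 b6).imp
    (fun h => (Nat.prime_dvd_prime_iff_eq hr.out Nat.prime_two).1 (hr.out.dvd_of_dvd_pow h))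
    fun h => (Nat.prime_dvd_prime_iff_eq hr.out Nat.prime_three).1 (hr.out.dvd_of_dvd_pow h)

theorem invs (h2 : (2 : F) ≠ 0) (h1 : f ^ 2 = 1) (hn : ∀ c : F, f ≠ c • 1) :
    ∃ h, Nu R 1 h ∧ elemDiv h = elemDiv f := by
  have hV := H.dim
  have : Nontrivial V := (finrank_pos_iff (R := F)).1 (by omega)
  obtain ⟨s, a1, a2, a3⟩ := H.swap
  have b1 := (inv_kd h2 h1).1
  have b2 := (inv_kd h2 a2).1
  have := kd_lt (hn 1)
  have := kd_lt (hn (-1))
  have := kd_lt (a3 1)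
  have := kd_lt (a3 (-1))
  by_cases h : kd s (X - C (-1)) = kd f (X - C (-1))
  · exact ⟨s, a1, eq_of_inv h2 a2 h1 h⟩
  · exact ⟨-s, a1.neg, eq_of_inv h2 (by simpa using a2) h1 (by rw [kd_neg]; omega)⟩

theorem threes (h1 : f ^ 3 = 1) (hn : ∀ c : F, f ≠ c • 1) : ∃ h, Nu R 1 h ∧ elemDiv h = elemDiv f := by
  have := Fact.mk Nat.prime_three
  have hV := H.dim
  have hw := H.ww
  have : Nontrivial V := (finrank_pos_iff (R := F)).1 (by omega)
  obtain ⟨χ, b1, b2⟩ := exists_chi H.ord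
  obtain ⟨A, hA⟩ := exists_dg_chi H.three H.ord b2 h1
  obtain ⟨a, b, c, rfl⟩ := Multiset.card_eq_three.1 (by simpa [hV] using hA.card)
  rcases zmod_three' a b c with h | ⟨i, j, h⟩ <;> rw [h] at hA
  · exact ⟨_, nu_of_mem H.hx, (H.dg b1 b2).trans hA.symm⟩
  have c1 := (b2 _).2 ⟨i, rfl⟩
  have c2 := (b2 _).2 ⟨j, rfl⟩
  have c3 : χ j ≠ 1 := fun h => hn (χ i) (eq_smul_one_of_forall fun a ha => by
    rw [hA] at ha; simpa [χ.map_add_eq_mul, h] using ha)
  obtain ⟨u, a1, a2, a3⟩ := H.diag (t := χ j) (by grind)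
  have c4 : χ i ≠ 0 := fun h => by simp [h] at c1
  refine ⟨χ i • u, a1.smul c4 fun σ hσ => ?_, ?_⟩
  · have := hσ w z H.hz H.zw
    have := map_pow σ w 2
    have := map_one σ
    rcases (by grind : χ i = 1 ∨ χ i = w ∨ χ i = w ^ 2) with h | h | h <;> rw [h] <;> grind
  have c5 : χ i ≠ χ i * χ j := fun h => c3 (mul_eq_left₀ c4 |>.1 h.symm)
  have c6 := kd_smul (y := u) c4 (χ j)
  obtain ⟨d1, d2⟩ := elemDiv_of_two_factors (f := χ i • u) c5 (by
    rw [show aeval (χ i • u) ((X - C (χ i)) * (X - C (χ i * χ j))) =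
      (χ i * χ i) • ((u - 1) * (u - χ j • 1)) by
        simp only [map_mul, map_sub, aeval_X, aeval_C, Algebra.algebraMap_eq_smul_one, ring_r F (End F V)]
        module, a2, smul_zero])
  rw [d2, hA, c6, a3, show kd (χ i • u) (X - C (χ i)) = 2 by omega]
  simp [χ.map_add_eq_mul]

end X3

theorem xs_sl3 (H : X3 R x y z w) (h2 : (2 : F) ≠ 0) {r : ℕ} [hr : Fact r.Prime]
    (hΩ : ∃ y : End F V, LinearMap.det y = 1 ∧ y ^ r = 1 ∧ y ≠ 1) :
    (∀ f : End F V, LinearMap.det f = 1 → PE r f → Cj (Nm R) f) ↔ r = 2 ∨ r = 3 := by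
  have hV := H.dim
  refine ⟨fun h => or_iff_not_imp_right.2 fun h3 => ?_, fun h => (forall_pe_iff (Cj.smul Nm.smul)).2
    ⟨fun y w a1 a2 _ => ?_, fun f c a0 a1 a2 a3 => ?_⟩⟩
  · obtain ⟨y, a1, a2, a3⟩ := hΩ
    have a4 := ne_smul_of_det ((Nat.coprime_primes hr.out Nat.prime_three).2 h3) hV a1 a2 a3
    exact (H.neg (h y a1 (pe_of a2 a4)) a2 a4).resolve_right h3
  · rcases h with rfl | rfl
    exacts [(H.invs h2 a1 a2).imp fun _ h => ⟨h.1.1, h.2⟩, (H.threes a1 a2).imp fun _ h => ⟨h.1.1, h.2⟩]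
  obtain ⟨-, k, b1, b2⟩ := (cases_pow (ne_zero_of_pow_eq (by simp [a3]) a0 a1) a1).resolve_left
    fun ⟨w, h, _⟩ => a2 ⟨w, h⟩
  rcases h with rfl | rfl
  · omega
  rw [det_of_exc (by norm_num) b2, show k = 1 by omega] at a3
  exact (a2 ⟨1, by rw [one_pow, ← a3]; ring⟩).elim

theorem xs_su3 [Fintype F] {p : ℕ} (hF : Fintype.card F = p ^ 2) (hp : p % 3 = 2)
    {R : Subgroup (End F (Fin 3 → F))ˣ} {x y z : (End F (Fin 3 → F))ˣ} (H : X3 R x y z w)
    (h2 : (2 : F) ≠ 0) (hR : ∀ x ∈ R, Iso (hermFormed hF 3) x.1) {r : ℕ}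
    [hr : Fact r.Prime] (hΩ : ∃ y, (Iso (hermFormed hF 3) y ∧ LinearMap.det y = 1) ∧ y ^ r = 1 ∧ y ≠ 1) :
    (∀ f, Iso (hermFormed hF 3) f ∧ LinearMap.det f = 1 → PE r f →
      Cg (fun f => Iso (hermFormed hF 3) f ∧ LinearMap.det f = 1) (Nm R) f) ↔ r = 2 ∨ r = 3 := by
  have hV := H.dim
  have hn := hermFormed_nondeg hF 3
  have hΦ : Spu (hermFormed hF 3) := spu_herm rfl
  have hN : ∀ h, Nu R 1 h → Iso (hermFormed hF 3) h := fun h b => sim_one.1 (b.2 _ _ hΦ hn hR)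
  refine ⟨fun h => or_iff_not_imp_right.2 fun h3 => ?_, fun h => (su_forall hn (Cg.smul Nm.smul)).2
    ⟨fun y w a0 a1 a2 a3 a4 => ?_, fun f c a0 a a1 a2 a3 a4 => ?_⟩⟩
  · obtain ⟨y, a1, a2, a3⟩ := hΩ
    have a4 := ne_smul_of_det ((Nat.coprime_primes hr.out Nat.prime_three).2 h3) hV a1.2 a2 a3
    exact (H.neg ((h y a1 (pe_of a2 a4)).cj fun k h => h.1.injective hn) a2 a4).resolve_right h3
  · rcases h with rfl | rfl
    · obtain ⟨h, b1, b2⟩ := H.invs h2 a1 a2
      exact su_cg a0 (hN h b1) a3 a4 (m := 2) h2 (pow_of_eq' b2.symm a1) b2 b1.1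
    · obtain ⟨h, b1, b2⟩ := H.threes a1 a2
      exact su_cg a0 (hN h b1) a3 a4 H.three (pow_of_eq' b2.symm a1) b2 b1.1
  rcases h with rfl | rfl
  · obtain ⟨w, b1, rfl⟩ := exists_sq_neg h2 a2 a3
    have := (type_two hΦ hn h2 a0 b1 a1).2.2.1
    omega
  rcases cases_pow (right_ne_zero_of_mul_eq_one a2) a1 with ⟨t, rfl, b1, -⟩ | ⟨-, k, b1, b2⟩
  · refine (a3 ⟨t, ?_, rfl⟩).elim
    have b2 : (frobq hF t * t) ^ 3 = 1 := by rw [mul_pow, ← map_pow, a2]
    have b3 : frobq hF (frobq hF t * t) = frobq hF t * t := by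
      rw [map_mul, frobq_frobq, mul_comm]
    generalize frobq hF t * t = s at b2 b3
    rw [frobq_apply, show p = 3 * (p / 3) + 2 by omega, pow_add, pow_mul, b2, one_pow, one_mul, sq] at b3
    grind
  rw [det_of_exc (by norm_num) b2, show k = 1 by omega] at a4
  exact (a3 ⟨1, by simp, by rw [one_pow, ← a4]; ring⟩).elim

end Cfsg.Agent.Elu
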